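import Mathlib
import Cfsg.Agent.Lib.ClassOMN.Tools

/-!
Class sizes `1`, `m`, `m * n`: either the centralizers of index `m` are abelian and conjugate, or `n` is a
prime power and every noncentral element of order prime to it lies in a class of size `m * n`.
-/

set_option autoImplicit false

namespace Cfsg.Agent.Lib.ClassOMN

open Subgroup

universe u

variable {G : Type u} [Group G]

/-- The elements in classes of size `m` have abelian conjugate centralizers. -/
def Good (G : Type u) [Group G] (m : ℕ) : Prop :=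
  ∃ D : Subgroup G, (∀ x ∈ D, ∀ y ∈ D, x * y = y * x) ∧ D.index = m ∧
    (∀ b : G, (cl b).index = m → ∃ g, cl b = cj g D) ∧ ∀ d ∈ D, d ∉ center G → cl d = D

/-- The remaining configuration. -/
def Bad (G : Type u) [Group G] (m n r : ℕ) : Prop :=
  r.Prime ∧ (∃ a : G, IsEl r a ∧ idx a = m) ∧ (∀ s, s.Prime → s ∣ n → s = r) ∧
    ∀ w : G, ¬ r ∣ orderOf w → w ∉ center G → idx w = m * n

variable [Finite G] {m n : ℕ}

theorem Hyp.not_dvd_m (h : Hyp G m n) {r : ℕ} (hr : r.Prime) (hrn : r ∣ n) : ¬ r ∣ m := fun hd =>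
  hr.ne_one (Nat.dvd_one.1 (h.hcop.gcd_eq_one ▸ Nat.dvd_gcd hd hrn))

theorem Hyp.idx_m_of_sylow_le (h : Hyp G m n) {r : ℕ} [Fact r.Prime] (hrn : r ∣ n) {x : G}
    (hx : x ∉ center G) {Q : Sylow r G} (hQ : (Q : Subgroup G) ≤ cl x) : idx x = m :=
  (h.noncentral hx).resolve_right fun e =>
    sylow_idx_not_dvd Q hQ ((hrn.trans (dvd_mul_left _ _)).trans (dvd_of_eq e.symm))

theorem Hyp.sylow_le_of_m (h : Hyp G m n) {r : ℕ} [hr : Fact r.Prime] (hrn : r ∣ n) {x : G}
    (hx : idx x = m) : ∃ Q : Sylow r G, (Q : Subgroup G) ≤ cl x :=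
  exists_sylow_le fun hd => h.not_dvd_m hr.out hrn (hd.trans (dvd_of_eq hx))

/-- Two commuting elements of coprime orders sharing a Sylow subgroup in their centralizers. -/
theorem Hyp.cl_eq_of_sylow (h : Hyp G m n) {r : ℕ} [Fact r.Prime] (hrn : r ∣ n) {x y : G}
    (hc : y ∈ cl x) (hco : (orderOf x).Coprime (orderOf y)) (hx : x ∉ center G) (hy : y ∉ center G)
    {Q : Sylow r G} (hQx : (Q : Subgroup G) ≤ cl x) (hQy : (Q : Subgroup G) ≤ cl y) :
    cl x = cl y := by
  have hle := cl_mul_le (mem_cl.1 hc).symm hco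
  have hQ : (Q : Subgroup G) ≤ cl (x * y) := le_trans (le_inf hQx hQy) (inf_le_cl_mul x y)
  have hz : x * y ∉ center G := fun hz =>
    hx (mem_center_of_cl (top_le_iff.1 (cl_eq_top hz ▸ hle.trans inf_le_left)))
  have hm := h.idx_m_of_sylow_le hrn hz hQ
  rw [← h.eq_of_le_m (hle.trans inf_le_left) hm hx, h.eq_of_le_m (hle.trans inf_le_right) hm hy]

/-- A single element in a class of size `m * n` spreads a noncentral commuting `r`-element to all. -/
theorem Hyp.spread (h : Hyp G m n) {r : ℕ} [hr : Fact r.Prime] (hrn : r ∣ n) {u c : G}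
    (hu : idx u = m * n) (hc : c ∈ cl u) (hcr : IsEl r c) (hcZ : c ∉ center G) (w : G) :
    ∃ d ∈ cl w, IsEl r d ∧ d ∉ center G := by
  have hk : r ∣ kk u := dvd_relIndex hr.out hc hcr hcZ
  rcases h.cases w with hw | hw | hw
  · obtain ⟨R⟩ : Nonempty (Sylow r G) := inferInstance
    obtain ⟨d, hd, hdZ⟩ := h.exists_el_sylow (hrn.trans (dvd_mul_left n m)) R
    exact ⟨d, cl_eq_top (idx_eq_one_iff.1 hw) ▸ mem_top d, IsEl.of_mem_pGroup R.2 hd, hdZ⟩
  · exact exists_el hr.out (show r ∣ kk w by rw [h.kk_m hw hu]; exact hk.mul_right n)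
  · exact exists_el hr.out (show r ∣ kk w by rw [h.kk_eq (hw.trans hu.symm)]; exact hk)

theorem good_of_sylow_le (h : Hyp G m n) {r : ℕ} [hr : Fact r.Prime] (hrn : r ∣ n) {a : G}
    (haZ : a ∉ center G) (har : ¬ r ∣ orderOf a) {R : Sylow r G} (hR : (R : Subgroup G) ≤ cl a) :
    Good G m := by
  have ha : idx a = m := h.idx_m_of_sylow_le hrn haZ hR
  -- the covering argument shows that no element of a largest class centralizes a noncentral r-element
  have hNC : ∀ u c : G, idx u = m * n → c ∈ cl u → IsEl r c → c ∈ center G := by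
    intro u c hu hc hcr
    by_contra hcZ
    refine h.cover hr.out ha (fun v hv hvm => ?_) (fun Q => ?_) (fun w _ => h.spread hrn hu hc hcr hcZ w)
    · obtain ⟨Q, hQ⟩ := h.sylow_le_of_m hrn hvm
      obtain ⟨g, hg⟩ := sylow_eq_cj R Q
      have hQa : (Q : Subgroup G) ≤ cl (g * a * g⁻¹) := by rw [cl_cj, hg]; exact cj_mono hR
      have hvQ := mem_sylow_of_le_cl hv Q hQ
      exact ⟨g, by
        rw [← cl_cj]
        exact h.cl_eq_of_sylow hrn (mem_cl_comm (hQa hvQ))
          (hv.coprime hr.out (by rwa [orderOf_cj])) (h.not_mem_center (Or.inl hvm))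
          (by rwa [conj_mem_center_iff]) hQ hQa⟩
    · obtain ⟨g, hg⟩ := sylow_eq_cj R Q
      exact ⟨g, hg ▸ cj_mono hR⟩
  set D := cl a with hD
  have hclR : ∀ v ∈ (R : Subgroup G), v ∉ center G → cl v = D := by
    intro v hv hvZ
    have hvr := IsEl.of_mem_pGroup R.2 hv
    have hco := hvr.coprime hr.out har
    have hc : a ∈ cl v := mem_cl_comm (hR hv)
    have hle := cl_mul_le (mem_cl.1 hc).symm hco
    have hz : v * a ∉ center G := fun hz =>
      hvZ (mem_center_of_cl (top_le_iff.1 (cl_eq_top hz ▸ hle.trans inf_le_left)))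
    have hvz : v ∈ cl (v * a) :=
      inf_le_cl_mul v a (mem_inf.2 ⟨self_mem_cl v, hR hv⟩)
    have hm : idx (v * a) = m :=
      (h.noncentral hz).resolve_right fun e => hvZ (hNC _ _ e hvz hvr)
    rw [← h.eq_of_le_m (hle.trans inf_le_left) hm hvZ, h.eq_of_le_m (hle.trans inf_le_right) hm haZ]
  obtain ⟨v0, hv0, hv0Z⟩ := h.exists_el_sylow (hrn.trans (dvd_mul_left n m)) R
  have hv0r := IsEl.of_mem_pGroup R.2 hv0
  have hRc : ∀ v ∈ (R : Subgroup G), D ≤ cl v := fun v hv => by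
    by_cases hvZ : v ∈ center G
    · exact cl_eq_top hvZ ▸ le_top
    · exact (hclR v hv hvZ).ge
  have hab : ∀ y ∈ D, D ≤ cl y := by
    intro y hy
    obtain ⟨v, hv, w, hw, e, hvr, hwr⟩ := exists_decomp y hr.out
    have hvD : v ∈ D := zpowers_le.2 hy hv
    have hwD : w ∈ D := zpowers_le.2 hy hw
    have hDw : D ≤ cl w := by
      have hc : w ∈ cl v0 := by rw [hclR v0 hv0 hv0Z]; exact hwD
      have hco := hv0r.coprime hr.out hwr
      have hle := cl_mul_le (mem_cl.1 hc).symm hco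
      have hz : v0 * w ∉ center G := fun hz =>
        hv0Z (mem_center_of_cl (top_le_iff.1 (cl_eq_top hz ▸ hle.trans inf_le_left)))
      have hv0z : v0 ∈ cl (v0 * w) := inf_le_cl_mul v0 w (mem_inf.2 ⟨self_mem_cl v0, mem_cl_comm hc⟩)
      have hm : idx (v0 * w) = m :=
        (h.noncentral hz).resolve_right fun e => hv0Z (hNC _ _ e hv0z hv0r)
      rw [← hclR v0 hv0 hv0Z, ← h.eq_of_le_m (hle.trans inf_le_left) hm hv0Z]
      exact hle.trans inf_le_right
    have hDv : D ≤ cl v := by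
      obtain ⟨T, hT⟩ : ∃ T : Sylow r D, (⟨v, hvD⟩ : D) ∈ (T : Subgroup D) :=
        exists_sylow_mem (by rwa [IsEl, Subgroup.orderOf_mk])
      obtain ⟨d, rfl⟩ := MulAction.exists_smul_eq D (R.subtype hR) T
      rw [Sylow.coe_subgroup_smul, Subgroup.mem_pointwise_smul_iff_inv_smul_mem, Sylow.coe_subtype,
        mem_subgroupOf] at hT
      simp only [MulAut.inv_apply, MulAut.smul_def, MulAut.conj_symm_apply, coe_mul, coe_inv] at hT
      have e1 : (d : G) * ((d : G)⁻¹ * v * d) = (d : G)⁻¹ * v * d * d := mem_cl.1 (hRc _ hT d.2)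
      have e2 : v = (d : G)⁻¹ * v * d := by
        rw [mul_assoc (d : G)⁻¹, mul_inv_cancel_left, ← mul_assoc] at e1
        exact mul_right_cancel e1
      rw [e2]
      exact hRc _ hT
    exact e ▸ (le_inf hDv hDw).trans (inf_le_cl_mul v w)
  refine ⟨D, fun x hx y hy => mem_cl.1 (hab y hy hx), ha, fun b hb => ?_, fun d hd hdZ => ?_⟩
  · obtain ⟨Q, hQ⟩ := h.sylow_le_of_m hrn hb
    obtain ⟨g, hg⟩ := sylow_eq_cj R Q
    refine ⟨g, ?_⟩
    have hv' : g * v0 * g⁻¹ ∈ cl b := hQ (hg ▸ mem_cj.2 (by simpa [mul_assoc] using hv0))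
    have hbD : b ∈ cj g D := by
      rw [← hclR v0 hv0 hv0Z, ← cl_cj]
      exact mem_cl_comm hv'
    have hle : cj g D ≤ cl b := fun x hx => mem_cl.2 (by
      have h1 := mem_cl.1 (hab _ (mem_cj.1 hbD) (mem_cj.1 hx))
      calc x * b = g * ((g⁻¹ * x * g) * (g⁻¹ * b * g)) * g⁻¹ := by group
        _ = g * ((g⁻¹ * b * g) * (g⁻¹ * x * g)) * g⁻¹ := by rw [h1]
        _ = b * x := by group)
    refine (le_antisymm hle fun x hx => ?_).symm
    have hi : (cj g D).index = (cl b).index := by rw [cj_index]; exact ha.trans hb.symm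
    by_contra hx'
    exact (index_strictAnti (lt_of_le_of_ne hle fun e => hx' (e ▸ hx))).ne' hi
  · exact (h.eq_of_le_m (hab d hd) ha hdZ).symm

theorem good_or_bad (h : Hyp G m n) : Good G m ∨ ∃ r, Bad G m n r := by
  obtain ⟨a0, ha0⟩ := h.exists_m
  obtain ⟨s, hs, -, a, ha, has, haZ⟩ := exists_primary (h.not_mem_center (Or.inl ha0))
  have ham : idx a = m := by
    rw [idx, ← h.eq_of_le_m (cl_le_of_mem_zpowers ha) ha0 haZ]
    exact ha0
  by_cases hr : ∃ r, r.Prime ∧ r ∣ n ∧ r ≠ s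
  · obtain ⟨r, hr, hrn, hne⟩ := hr
    have : Fact r.Prime := ⟨hr⟩
    obtain ⟨R, hR⟩ := h.sylow_le_of_m hrn ham
    exact Or.inl (good_of_sylow_le h hrn haZ (has.not_dvd hs hr hne.symm) hR)
  · push Not at hr
    have hsn : s ∣ n := by
      obtain ⟨q, hq, hqd⟩ := Nat.exists_prime_and_dvd h.hn.ne'
      exact hr q hq hqd ▸ hqd
    by_cases hw : ∃ w : G, ¬ s ∣ orderOf w ∧ w ∉ center G ∧ idx w = m
    · obtain ⟨w, hws, hwZ, hwm⟩ := hw
      have : Fact s.Prime := ⟨hs⟩
      obtain ⟨R, hR⟩ := h.sylow_le_of_m hsn hwm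
      exact Or.inl (good_of_sylow_le h hsn hwZ hws hR)
    · push Not at hw
      exact Or.inr ⟨s, hs, ⟨a, has, ham⟩, hr, fun w hws hwZ =>
        (h.noncentral hwZ).resolve_left (hw w hws hwZ)⟩

end Cfsg.Agent.Lib.ClassOMN
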