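import Mathlib
import Cfsg.Agent.Lib.ClassOMN.Dichotomy

/-!
Class sizes `1`, `m`, `m * n` in the configuration `Bad`: reduction to two primes.
-/

set_option autoImplicit false

namespace Cfsg.Agent.Lib.ClassOMN

open Subgroup

universe u

variable {G : Type u} [Group G] [Finite G] {m n r : ℕ}

theorem Bad.dvd_n (hb : Bad G m n r) (h : Hyp G m n) : r ∣ n := by
  obtain ⟨q, hq, hqd⟩ := Nat.exists_prime_and_dvd h.hn.ne'
  exact hb.2.2.1 q hq hqd ▸ hqd

theorem Bad.not_dvd_n (hb : Bad G m n r) {s : ℕ} (hs : s.Prime) (hne : s ≠ r) : ¬ s ∣ n :=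
  fun hd => hne (hb.2.2.1 s hs hd)

theorem Bad.coprime_n (hb : Bad G m n r) {k : ℕ} (hk : ¬ r ∣ k) : k.Coprime n := by
  refine Nat.coprime_of_dvd fun p hp h1 h2 => hk (hb.2.2.1 p hp h2 ▸ h1)

theorem Bad.ne_of_dvd_m (hb : Bad G m n r) (h : Hyp G m n) {q : ℕ} (hqm : q ∣ m) : q ≠ r :=
  fun e => h.not_dvd_m hb.1 (hb.dvd_n h) (e ▸ hqm)

theorem Bad.idx_el (hb : Bad G m n r) {s : ℕ} (hs : s.Prime) (hne : s ≠ r) {x : G}
    (hx : IsEl s x) (hxZ : x ∉ center G) : idx x = m * n :=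
  hb.2.2.2 x (hx.not_dvd hs hb.1 hne) hxZ

/-- Commuting noncentral elements of coprime orders prime to `r`. -/
theorem Bad.cl_eq (hb : Bad G m n r) (h : Hyp G m n) {x y : G} (hc : y ∈ cl x)
    (hco : (orderOf x).Coprime (orderOf y)) (hx : idx x = m * n) (hy : idx y = m * n) :
    cl x = cl y :=
  have := hb
  le_antisymm (h.cl_le_of_commute hc hco hx) (h.cl_le_of_commute (mem_cl_comm hc) hco.symm hy)

theorem Bad.dvd_kk (hb : Bad G m n r) (h : Hyp G m n) {q : ℕ} (hq : q.Prime) (hqm : q ∣ m) {x : G}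
    (hx : x ∉ center G) : q ∣ kk x := by
  have : Fact q.Prime := ⟨hq⟩
  obtain ⟨Q⟩ : Nonempty (Sylow q G) := inferInstance
  obtain ⟨u, hu, huZ⟩ := h.exists_el_sylow (hqm.mul_right n) Q
  have huq := IsEl.of_mem_pGroup Q.2 hu
  have hum := hb.idx_el hq (hb.ne_of_dvd_m h hqm) huq huZ
  have hk : q ∣ kk u := dvd_relIndex hq (self_mem_cl u) huq huZ
  rcases h.noncentral hx with e | e
  · rw [h.kk_m e hum]; exact hk.mul_right n
  · rw [h.kk_eq (e.trans hum.symm)]; exact hk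

theorem Bad.exists_el_cl (hb : Bad G m n r) (h : Hyp G m n) {q : ℕ} (hq : q.Prime) (hqm : q ∣ m)
    {x : G} (hx : x ∉ center G) : ∃ y ∈ cl x, IsEl q y ∧ y ∉ center G :=
  exists_el hq (hb.dvd_kk h hq hqm hx)

theorem Bad.exists_r' (hb : Bad G m n r) (h : Hyp G m n) {x : G} (hx : x ∉ center G) :
    ∃ w ∈ cl x, ¬ r ∣ orderOf w ∧ w ∉ center G := by
  obtain ⟨q, hq, hqm⟩ := Nat.exists_prime_and_dvd h.hm.ne'
  obtain ⟨y, hy, hyq, hyZ⟩ := hb.exists_el_cl h hq hqm hx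
  exact ⟨y, hy, hyq.not_dvd hq hb.1 (hb.ne_of_dvd_m h hqm), hyZ⟩

/-- Every element of order prime to `r` commutes with a noncentral `r`-element. -/
theorem Bad.exists_r (hb : Bad G m n r) (h : Hyp G m n) (w : G) :
    ∃ c ∈ cl w, IsEl r c ∧ c ∉ center G := by
  have : Fact r.Prime := ⟨hb.1⟩
  obtain ⟨a, har, ham⟩ := hb.2.1
  obtain ⟨w0, hw0, hw0r, hw0Z⟩ := hb.exists_r' h (h.not_mem_center (Or.inl ham))
  exact h.spread (hb.dvd_n h) (hb.2.2.2 w0 hw0r hw0Z) (mem_cl_comm hw0) har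
    (h.not_mem_center (Or.inl ham)) w

/-- A class of size `m` containing a Sylow subgroup and a centralizer of index `m * n`. -/
theorem Bad.cl_eq_sup (hb : Bad G m n r) (h : Hyp G m n) [Fact r.Prime] {c w : G} (hc : idx c = m)
    (hw : idx w = m * n) (hwc : cl w ≤ cl c) (Q : Sylow r G) (hQ : (Q : Subgroup G) ≤ cl c) :
    cl c = (Q : Subgroup G) ⊔ cl w := by
  have hle : (Q : Subgroup G) ⊔ cl w ≤ cl c := sup_le hQ hwc
  have hd : ((Q : Subgroup G) ⊔ cl w).index ∣ m * n :=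
    (index_dvd_of_le le_sup_right).trans (dvd_of_eq hw)
  have hdm : ((Q : Subgroup G) ⊔ cl w).index ∣ m :=
    (hb.coprime_n (sylow_idx_not_dvd Q le_sup_left)).dvd_of_dvd_mul_right hd
  by_contra hne
  have h1 := index_strictAnti (lt_of_le_of_ne hle (Ne.symm hne))
  have h2 := Nat.le_of_dvd (by have := h.hm; omega) hdm
  simp only [idx] at hc
  omega

/-- All noncentral `r`-elements have classes of size `m`. -/
theorem Bad.idx_r (hb : Bad G m n r) (h : Hyp G m n) {v : G} (hv : IsEl r v) (hvZ : v ∉ center G) :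
    idx v = m := by
  refine (h.noncentral hvZ).resolve_right fun hv0 => ?_
  have : Fact r.Prime := ⟨hb.1⟩
  obtain ⟨R0, hR0⟩ := exists_sylow_mem hv
  obtain ⟨w0, hw0, hw0r, hw0Z⟩ := hb.exists_r' h hvZ
  have hw0m := hb.2.2.2 w0 hw0r hw0Z
  have hcl : cl v = cl w0 := hb.cl_eq h hw0 (hv.coprime hb.1 hw0r) hv0 hw0m
  have claim : ∀ u, IsEl r u → idx u = m →
      ∃ g, cl u = cj g ((R0 : Subgroup G) ⊔ cl v) := by
    intro u hu hum
    obtain ⟨Q, hQ⟩ := h.sylow_le_of_m (hb.dvd_n h) hum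
    obtain ⟨g, hg⟩ := sylow_eq_cj R0 Q
    have hvu : g * v * g⁻¹ ∈ cl u := hQ (hg ▸ mem_cj.2 (by simpa [mul_assoc] using hR0))
    have hu2 : u ∈ cl (g * w0 * g⁻¹) := by
      rw [cl_cj, ← hcl, ← cl_cj]; exact mem_cl_comm hvu
    have hwm : idx (g * w0 * g⁻¹) = m * n := by rw [idx_cj]; exact hw0m
    have hle := h.cl_le_of_commute hu2
      ((hu.coprime hb.1 (by rwa [orderOf_cj])).symm) hwm
    refine ⟨g, ?_⟩
    rw [hb.cl_eq_sup h hum hwm hle Q hQ, hg, cl_cj, ← hcl]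
    exact (Subgroup.map_sup _ _ _).symm
  obtain ⟨a, har, ham⟩ := hb.2.1
  obtain ⟨g, hg⟩ := claim a har ham
  refine h.cover hb.1 ham (fun u hu hum => ?_) (fun Q => ?_) fun w _ => hb.exists_r h w
  · obtain ⟨g', hg'⟩ := claim u hu hum
    exact ⟨g' * g⁻¹, by rw [hg', hg, cj_cj, inv_mul_cancel_right]⟩
  · obtain ⟨g', hg'⟩ := sylow_eq_cj R0 Q
    exact ⟨g' * g⁻¹, by rw [hg', hg, cj_cj, inv_mul_cancel_right]; exact cj_mono le_sup_left⟩

/-- Not all noncentral elements of order prime to `r` have conjugate centralizers. -/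
theorem Bad.covk (hb : Bad G m n r) (h : Hyp G m n) {u : G} (hu : u ∉ center G)
    (hall : ∀ w : G, ¬ r ∣ orderOf w → w ∉ center G → ∃ g, cl w = cj g (cl u)) : False := by
  obtain ⟨x, hx⟩ := Hall.TwoClass.exists_not_conj_mem (H := cl u)
    fun e => hu (mem_center_of_cl e)
  have hx' : ∀ g, x ∉ cj g (cl u) := fun g hg => hx g (mem_cj.1 hg)
  obtain ⟨v, hv, w, hw, e, hvr, hwr⟩ := exists_decomp x hb.1
  by_cases hwZ : w ∈ center G
  · by_cases hvZ : v ∈ center G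
    · exact hx' 1 (by rw [cj_one]; exact center_le_cl _ (e ▸ mul_mem hvZ hwZ))
    · obtain ⟨w', hw', hw'r, hw'Z⟩ := hb.exists_r' h hvZ
      obtain ⟨g, hg⟩ := hall w' hw'r hw'Z
      exact hx' g (hg ▸ e ▸ mul_mem (mem_cl_comm hw') (center_le_cl _ hwZ))
  · obtain ⟨g, hg⟩ := hall w hwr hwZ
    exact hx' g (hg ▸ e ▸ mul_mem (mem_cl_of_mem_zpowers hv hw) (self_mem_cl w))

theorem Bad.primary (hb : Bad G m n r) (h : Hyp G m n) {w : G} (hwr : ¬ r ∣ orderOf w)
    (hwZ : w ∉ center G) :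
    ∃ s u, s.Prime ∧ s ≠ r ∧ IsEl s u ∧ u ∉ center G ∧ u ∈ zpowers w ∧ cl w = cl u := by
  obtain ⟨s, hs, hsd, u, hu, hus, huZ⟩ := exists_primary hwZ
  have hne : s ≠ r := fun e => hwr (e ▸ hsd)
  exact ⟨s, u, hs, hne, hus, huZ, hu,
    h.eq_of_le_mn (cl_le_of_mem_zpowers hu) (hb.idx_el hs hne hus huZ)⟩

/-- Every prime other than `r` dividing the index of the center divides `m`. -/
theorem Bad.prime_dvd_m (hb : Bad G m n r) (h : Hyp G m n) {t : ℕ} (ht : t.Prime) (htr : t ≠ r)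
    (htd : t ∣ (center G).index) : t ∣ m := by
  by_contra htm
  have : Fact t.Prime := ⟨ht⟩
  obtain ⟨u, -, hut, huZ⟩ := exists_el ht (H := (⊤ : Subgroup G)) (by rwa [relIndex_top_right])
  obtain ⟨q, hq, hqm⟩ := Nat.exists_prime_and_dvd h.hm.ne'
  have hqt : q ≠ t := fun e => htm (e ▸ hqm)
  have hqr := hb.ne_of_dvd_m h hqm
  have hum := hb.idx_el ht htr hut huZ
  have hnd : ∀ x : G, idx x = m * n → ¬ t ∣ (cl x).index := fun x hx hd =>
    (ht.dvd_mul.1 (hd.trans (dvd_of_eq hx))).elim htm (hb.not_dvd_n ht htr)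
  obtain ⟨T, hT⟩ := exists_sylow_le (hnd u hum)
  have huT := mem_sylow_of_le_cl hut T hT
  -- elements of order prime to t
  have hA : ∀ s w, s.Prime → s ≠ r → s ≠ t → IsEl s w → w ∉ center G →
      ∃ g, cl w = cj g (cl u) := by
    intro s w hs hsr hst hws hwZ
    have hwm := hb.idx_el hs hsr hws hwZ
    obtain ⟨T', hT'⟩ := exists_sylow_le (hnd w hwm)
    obtain ⟨g, hg⟩ := sylow_eq_cj T T'
    refine ⟨g, ?_⟩
    rw [← cl_cj]
    exact hb.cl_eq h (hT' (hg ▸ mem_cj.2 (by simpa [mul_assoc] using huT)))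
      (hws.coprime hs ((hut.cj g).not_dvd ht hs hst.symm)) hwm (by rw [idx_cj]; exact hum)
  refine hb.covk h huZ fun w hwr hwZ => ?_
  obtain ⟨s, w', hs, hsr, hws, hw'Z, -, hcl⟩ := hb.primary h hwr hwZ
  rw [hcl]
  by_cases hst : s = t
  · subst hst
    obtain ⟨y, hy, hyq, hyZ⟩ := hb.exists_el_cl h hq hqm hw'Z
    obtain ⟨g, hg⟩ := hA q y hq hqr hqt hyq hyZ
    exact ⟨g, by rw [hb.cl_eq h hy (hws.coprime hs (hyq.not_dvd hq hs hqt))
      (hb.idx_el hs hsr hws hw'Z) (hb.idx_el hq hqr hyq hyZ), hg]⟩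
  · exact hA s w' hs hsr hst hws hw'Z

/-- The inequality coming from two primes dividing `m`. -/
theorem Bad.ineq (hb : Bad G m n r) (h : Hyp G m n) {u0 : G} (hu0 : idx u0 = m * n) {s t : ℕ}
    (hs : s.Prime) (ht : t.Prime) (hst : s ≠ t) (hsm : s ∣ m) (htm : t ∣ m) :
    s ^ (kk u0).factorization s ≤ s ^ m.factorization s ∧
      s ^ m.factorization s < t ^ (kk u0).factorization t := by
  have : Fact s.Prime := ⟨hs⟩
  have : Fact t.Prime := ⟨ht⟩
  have hsr := hb.ne_of_dvd_m h hsm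
  have htr := hb.ne_of_dvd_m h htm
  obtain ⟨S⟩ : Nonempty (Sylow s G) := inferInstance
  obtain ⟨y, hyS, hyZ, -, hyc⟩ := exists_y S.2 le_rfl
    (fun g hg a ha => mul_mem (mul_mem hg ha) (inv_mem hg)) (h.exists_el_sylow (hsm.mul_right n) S)
  have hys := IsEl.of_mem_pGroup S.2 hyS
  have hym := hb.idx_el hs hsr hys hyZ
  set K := cl y with hKdef
  have hSK : ∀ g ∈ (S : Subgroup G), cj g K = K := fun g hg => by
    rw [← cl_cj]
    refine le_antisymm (fun x hx => mem_cl.2 ?_) fun x hx => mem_cl.2 ?_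
    · have hz := mem_center_iff.1 (hyc g hg)
      have e := mem_cl.1 hx
      calc x * y = (g * y * g⁻¹ * y⁻¹)⁻¹ * (x * (g * y * g⁻¹)) := by
            rw [← mul_assoc, ← mem_center_iff.1 (inv_mem (hyc g hg)) x]; group
        _ = (g * y * g⁻¹ * y⁻¹)⁻¹ * ((g * y * g⁻¹) * x) := by rw [e]
        _ = y * x := by group
    · have e := mem_cl.1 hx
      calc x * (g * y * g⁻¹) = x * (g * y * g⁻¹ * y⁻¹) * y := by group
        _ = (g * y * g⁻¹ * y⁻¹) * (x * y) := by rw [mem_center_iff.1 (hyc g hg) x]; group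
        _ = (g * y * g⁻¹ * y⁻¹) * (y * x) := by rw [e]
        _ = g * y * g⁻¹ * x := by group
  -- every noncentral element of order prime to r in K has centralizer K
  have hK1 : ∀ w ∈ K, ¬ r ∣ orderOf w → w ∉ center G → cl w = K := by
    intro w hw hwr hwZ
    obtain ⟨q, w', hq, hqr, hw', hw'Z, hw'z, hcl⟩ := hb.primary h hwr hwZ
    have hw'K : w' ∈ K := zpowers_le.2 hw hw'z
    have hw'm := hb.idx_el hq hqr hw' hw'Z
    rw [hcl]
    by_cases hqs : q = s
    · subst hqs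
      obtain ⟨z, hz, hzt, hzZ⟩ := hb.exists_el_cl h ht htm hyZ
      have hzm := hb.idx_el ht htr hzt hzZ
      have hzK : K = cl z := hb.cl_eq h hz (hys.coprime hq (hzt.not_dvd ht hq hst.symm)) hym hzm
      rw [hzK] at hw'K ⊢
      exact hb.cl_eq h (mem_cl_comm hw'K) (hw'.coprime hq (hzt.not_dvd ht hq hst.symm)) hw'm hzm
    · exact hb.cl_eq h (mem_cl_comm hw'K) (hw'.coprime hq (hys.not_dvd hs hq (Ne.symm hqs))) hw'm hym
  have hKab : ∀ x ∈ K, K ≤ cl x := by
    intro x hx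
    obtain ⟨v, hv, w, hw, e, hvr, hwr⟩ := exists_decomp x hb.1
    have hvK : K ≤ cl v :=
      h.cl_le_of_commute (zpowers_le.2 hx hv)
        ((hvr.coprime hb.1 (hys.not_dvd hs hb.1 hsr)).symm) hym
    have hwK : K ≤ cl w := by
      by_cases hwZ : w ∈ center G
      · exact cl_eq_top hwZ ▸ le_top
      · exact (hK1 w (zpowers_le.2 hx hw) hwr hwZ).ge
    exact e ▸ (le_inf hvK hwK).trans (inf_le_cl_mul v w)
  have hrel : K.relIndex S = s ^ m.factorization s := by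
    rw [relIndex_sylow_eq S hSK, show K.index = m * n from hym,
      Nat.factorization_mul (by have := h.hm; omega) (by have := h.hn; omega)]
    simp [Nat.factorization_eq_zero_of_not_dvd (hb.not_dvd_n hs hsr)]
  refine ⟨?_, ?_⟩
  · -- a second class of centralizers
    obtain ⟨u, hus, huZ, huK⟩ : ∃ u, IsEl s u ∧ u ∉ center G ∧ ∀ g, cl u ≠ cj g K := by
      by_contra! hcon
      refine hb.covk h hyZ fun w hwr hwZ => ?_
      obtain ⟨q, w', hq, hqr, hw', hw'Z, -, hcl⟩ := hb.primary h hwr hwZ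
      rw [hcl]
      by_cases hqs : q = s
      · exact hcon w' (hqs ▸ hw') hw'Z
      · obtain ⟨z, hz, hzs, hzZ⟩ := hb.exists_el_cl h hs hsm hw'Z
        obtain ⟨g, hg⟩ := hcon z hzs hzZ
        exact ⟨g, by rw [hb.cl_eq h hz (hw'.coprime hq (hzs.not_dvd hs hq (Ne.symm hqs)))
          (hb.idx_el hq hqr hw' hw'Z) (hb.idx_el hs hsr hzs hzZ), hg]⟩
    obtain ⟨T, hT⟩ : ∃ T : Sylow s (cl u), (⟨u, self_mem_cl u⟩ : cl u) ∈ (T : Subgroup (cl u)) :=
      exists_sylow_mem (by rwa [IsEl, Subgroup.orderOf_mk])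
    obtain ⟨S0, hS0⟩ := (T.2.map (cl u).subtype).exists_le_sylow
    obtain ⟨g, hg⟩ := sylow_eq_cj S0 S
    set U := cj g ((T : Subgroup (cl u)).map (cl u).subtype) with hU
    have hUS : U ≤ (S : Subgroup G) := hg ▸ cj_mono hS0
    have huU : g * u * g⁻¹ ∈ U :=
      mem_cj.2 ⟨⟨u, self_mem_cl u⟩, hT, by simp [mul_assoc]⟩
    have hu'K : g * u * g⁻¹ ∉ K := fun hmem => by
      refine huK g⁻¹ ?_
      rw [← hK1 _ hmem ((hus.cj g).not_dvd hs hb.1 hsr) (by rwa [conj_mem_center_iff]), cl_cj,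
        cj_inv_cj]
    have hUK : U ⊓ K ≤ center G := by
      rintro c ⟨hcU, hcK⟩
      by_contra hcZ
      have hcs := IsEl.of_mem_pGroup S.2 (hUS hcU)
      have hcl := hK1 c hcK (hcs.not_dvd hs hb.1 hsr) hcZ
      have hc2 : c ∈ cl (g * u * g⁻¹) := by
        rw [cl_cj]
        exact cj_mono (map_subtype_le _) hcU
      exact hu'K (hcl ▸ mem_cl_comm hc2)
    have e1 : (center G).relIndex U = s ^ (kk u0).factorization s := by
      rw [hU, relIndex_center_cj, relIndex_center_sylow T,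
        h.kk_eq (hu0.trans (hb.idx_el hs hsr hus huZ).symm)]
    rw [← e1, ← hrel]
    calc (center G).relIndex U ≤ (U ⊓ K).relIndex U :=
          relIndex_le_of_le_left hUK index_ne_zero_of_finite
      _ = K.relIndex U := inf_relIndex_left _ _
      _ ≤ K.relIndex S := relIndex_le_of_le_right hUS index_ne_zero_of_finite
  · obtain ⟨T⟩ : Nonempty (Sylow t K) := inferInstance
    set A := (T : Subgroup K).map K.subtype with hA
    set B := center G ⊓ A with hB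
    have hAK : A ≤ K := map_subtype_le _
    have hAt : IsPGroup t A := T.2.map _
    have hmemA : ∀ x ∈ K, IsEl t x → x ∈ A := fun x hx hxt => by
      refine ⟨⟨x, hx⟩, mem_sylow_of_le_cl (by rwa [IsEl, Subgroup.orderOf_mk]) T ?_, rfl⟩
      intro a _
      exact mem_cl.2 (Subtype.ext (mem_cl.1 (hKab x hx a.2)))
    have hAinv : ∀ g ∈ (S : Subgroup G), ∀ a ∈ A, g * a * g⁻¹ ∈ A := fun g hg a ha => by
      refine hmemA _ ?_ ((IsEl.of_mem_pGroup hAt ha).cj g)
      rw [← hSK g hg]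
      exact mem_cj.2 (by simpa [mul_assoc] using hAK ha)
    have hBinv : ∀ g ∈ (S : Subgroup G), ∀ b ∈ B, g * b * g⁻¹ ∈ B := fun g hg b hb' =>
      ⟨conj_mem_center_iff.2 hb'.1, hAinv g hg b hb'.2⟩
    have hdvd := semiregular_dvd (S : Subgroup G) K A B inf_le_right hAinv hBinv
      (fun g _ a ha haB hga => by
        have haZ : a ∉ center G := fun hz => haB ⟨hz, ha⟩
        rw [← hK1 a (hAK ha) ((IsEl.of_mem_pGroup hAt ha).not_dvd ht hb.1 htr) haZ]
        exact mem_cl.2 hga)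
      (fun g _ hgK a ha => mem_cl.1 (hKab a (hAK ha) hgK))
    have e1 : B.relIndex A = t ^ (kk u0).factorization t := by
      rw [hB, inf_relIndex_right, hA, relIndex_center_sylow T, hKdef,
        h.kk_eq (hu0.trans hym.symm)]
    have e2 : Nat.card A = Nat.card B * t ^ (kk u0).factorization t := by
      rw [← e1, ← relIndex_bot_left, ← relIndex_bot_left,
        relIndex_mul_relIndex ⊥ B A bot_le inf_le_right]
    rw [hrel, e2, ← Nat.mul_sub_one] at hdvd
    obtain ⟨i, hi⟩ := IsPGroup.iff_card.1 (hAt.to_le (inf_le_right : B ≤ A))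
    rw [hi] at hdvd
    have hdvd' := (Nat.Coprime.pow _ i ((Nat.coprime_primes hs ht).2 hst)).dvd_of_dvd_mul_left hdvd
    have he : (kk u0).factorization t ≠ 0 := (ht.factorization_pos_of_dvd (kk_pos u0).ne'
      (hb.dvd_kk h ht htm (h.not_mem_center (Or.inr hu0)))).ne'
    have h1 : 1 < t ^ (kk u0).factorization t := Nat.one_lt_pow he ht.one_lt
    have := Nat.le_of_dvd (by omega) hdvd'
    omega

/-- Only one prime divides `m`. -/
theorem Bad.prime_unique (hb : Bad G m n r) (h : Hyp G m n) {s t : ℕ} (hs : s.Prime) (ht : t.Prime)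
    (hsm : s ∣ m) (htm : t ∣ m) : s = t := by
  by_contra hst
  obtain ⟨u0, hu0⟩ := h.exists_mn
  have h1 := hb.ineq h hu0 hs ht hst hsm htm
  have h2 := hb.ineq h hu0 ht hs (Ne.symm hst) htm hsm
  omega

end Cfsg.Agent.Lib.ClassOMN
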