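import Mathlib
import Cfsg.Agent.Lib.ClassOMN.Bad
import Cfsg.Agent.Lib.Components.Cores
import Cfsg.Agent.Lib.Char.Burnside
import Cfsg.Agent.Lib.HallHigman.Solvable
import Cfsg.Agent.Lib.LocalFusion.PSolvable

/-!
The configuration `Bad` is impossible.
-/

set_option autoImplicit false

namespace Cfsg.Agent.Lib.ClassOMN

open Subgroup

universe u

variable {G : Type u} [Group G] [Finite G] {m n r : ℕ}

theorem pPrimeCore_quot_eq_bot (p : ℕ) [hp : Fact p.Prime] :
    Cfsg.pPrimeCore p (G ⧸ Cfsg.pPrimeCore p G) = ⊥ := by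
  set O := Cfsg.pPrimeCore p G with hO
  set M := (Cfsg.pPrimeCore p (G ⧸ O)).comap (QuotientGroup.mk' O) with hM
  have hle : O ≤ M := fun x hx => by
    rw [hM, mem_comap, show QuotientGroup.mk' O x = 1 from (QuotientGroup.eq_one_iff x).2 hx]
    exact one_mem _
  have : M.Normal := (Cfsg.pPrimeCore_normal p _).comap _
  have h1 : O.relIndex M = Nat.card ↥(Cfsg.pPrimeCore p (G ⧸ O)) := by
    conv_lhs => rw [← QuotientGroup.ker_mk' O, relIndex_ker]
    rw [hM, map_comap_eq_self_of_surjective (QuotientGroup.mk'_surjective O)]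
  have h2 : Nat.card O * O.relIndex M = Nat.card M := by
    rw [← relIndex_bot_left, relIndex_mul_relIndex ⊥ O M bot_le hle, relIndex_bot_left]
  have h3 : (Nat.card M).Coprime p := by
    rw [← h2, h1]
    exact (Components.pPrimeCore_coprime p).mul_left (Components.pPrimeCore_coprime p)
  have h4 : M ≤ O := Components.le_pPrimeCore h3
  rw [eq_bot_iff]
  intro x hx
  obtain ⟨y, rfl⟩ := QuotientGroup.mk'_surjective O x
  exact (QuotientGroup.eq_one_iff y).2 (h4 hx)

/-- Solvable groups in which every `r`-element centralizes a Sylow `r`-subgroup. -/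
theorem sylow_core_of_solvable [Group.IsSolvable G] [hr : Fact r.Prime]
    (hall : ∀ v : G, IsEl r v → ∃ Q : Sylow r G, (Q : Subgroup G) ≤ cl v) (R : Sylow r G) :
    ((R : Subgroup G) ⊔ Cfsg.pPrimeCore r G).Normal ∧
      ∀ x ∈ (R : Subgroup G), ∀ y ∈ (R : Subgroup G), x * y = y * x := by
  set O := Cfsg.pPrimeCore r G with hO
  let π := QuotientGroup.mk' O
  have hπ : Function.Surjective π := QuotientGroup.mk'_surjective O
  set P := Cfsg.pCore r (G ⧸ O) with hP
  have hC : centralizer (P : Set (G ⧸ O)) ≤ P :=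
    LocalFusion.centralizer_pCore_le_of_isPSolvable
      (HallHigman.isPSolvable_of_isSolvable r) (pPrimeCore_quot_eq_bot r)
  have hPle : ∀ Q : Sylow r (G ⧸ O), P ≤ (Q : Subgroup (G ⧸ O)) := fun Q => by
    have : P.Normal := Cfsg.pCore_normal r _
    exact (Q.3 ((Components.pCore_isPGroup r).to_sup_of_normal_left Q.2) le_sup_right) ▸ le_sup_left
  have hRC : (R : Subgroup G).map π ≤ centralizer (P : Set (G ⧸ O)) := by
    rintro _ ⟨v, hv, rfl⟩
    obtain ⟨Q, hQ⟩ := hall v (IsEl.of_mem_pGroup R.2 hv)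
    refine mem_centralizer_iff.2 fun p hp => ?_
    obtain ⟨q, hq, rfl⟩ := hPle (Q.mapSurjective hπ) hp
    rw [← map_mul, ← map_mul, mem_cl.1 (hQ hq)]
  have hRP : (R : Subgroup G).map π = P := le_antisymm (hRC.trans hC) (hPle (R.mapSurjective hπ))
  constructor
  · have : (R : Subgroup G) ⊔ O = P.comap π := by
      rw [← hRP, comap_map_eq, QuotientGroup.ker_mk']
    rw [this]
    exact (Cfsg.pCore_normal r _).comap π
  · intro x hx y hy
    have h1 : π (x * y * x⁻¹ * y⁻¹) = 1 := by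
      have e : π y * π x = π x * π y := by
        refine mem_centralizer_iff.1 (hRC (mem_map_of_mem π hx)) _ ?_
        rw [← hRP]
        exact mem_map_of_mem π hy
      simp only [map_mul, map_inv]
      rw [← e]
      group
    have h2 : x * y * x⁻¹ * y⁻¹ ∈ (R : Subgroup G) ⊓ O :=
      mem_inf.2 ⟨mul_mem (mul_mem (mul_mem hx hy) (inv_mem hx)) (inv_mem hy),
        (QuotientGroup.eq_one_iff _).1 h1⟩
    rw [Components.inf_eq_bot_of_pGroup_coprime R.2 (Components.pPrimeCore_coprime r), mem_bot] at h2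
    calc x * y = (x * y * x⁻¹ * y⁻¹) * (y * x) := by group
      _ = y * x := by rw [h2, one_mul]

theorem IsEl.mul [Fact r.Prime] {x y : G} (hx : IsEl r x) (hy : IsEl r y) (hc : Commute x y) :
    IsEl r (x * y) := by
  obtain ⟨i, hi⟩ := hx
  obtain ⟨j, hj⟩ := hy
  refine ⟨i + j, hc.orderOf_mul_dvd_lcm.trans (Nat.lcm_dvd ?_ ?_)⟩
  · exact hi.trans (pow_dvd_pow r (Nat.le_add_right i j))
  · exact hj.trans (pow_dvd_pow r (Nat.le_add_left j i))

theorem IsEl.eq_one {x : G} (hr : r.Prime) (hx : IsEl r x) (hx' : ¬ r ∣ orderOf x) : x = 1 := by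
  rw [← orderOf_eq_one_iff]
  exact (Nat.coprime_self _).1 (hx.coprime hr hx')

/-- The configuration `Bad` does not occur. -/
theorem Bad.false (hb : Bad G m n r) (h : Hyp G m n) : False := by
  have : Fact r.Prime := ⟨hb.1⟩
  obtain ⟨s, hs, hsm⟩ := Nat.exists_prime_and_dvd h.hm.ne'
  have : Fact s.Prime := ⟨hs⟩
  have hsr := hb.ne_of_dvd_m h hsm
  have hpr : ∀ q, q.Prime → q ∣ (center G).index → q = r ∨ q = s := fun q hq hd =>
    (em (q = r)).imp id fun hne => hb.prime_unique h hq hs (hb.prime_dvd_m h hq hne hd) hsm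
  have : Group.IsSolvable (G ⧸ center G) :=
    Char.isSolvable_of_card_eq_two_primes hb.1 hs _ _ rfl fun q hq hd =>
      hpr q hq (by rw [index_eq_card]; exact hd)
  have : Group.IsSolvable (center G) :=
    Group.isSolvable_of_comm fun a b => Subtype.ext (mem_center_iff.1 b.2 a.1)
  have : Group.IsSolvable G :=
    Group.isSolvable_of_ker_le_range (center G).subtype (QuotientGroup.mk' (center G)) (by simp)
  have hall : ∀ v : G, IsEl r v → ∃ Q : Sylow r G, (Q : Subgroup G) ≤ cl v := fun v hv => by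
    by_cases hvZ : v ∈ center G
    · obtain ⟨R⟩ : Nonempty (Sylow r G) := inferInstance
      exact ⟨R, cl_eq_top hvZ ▸ le_top⟩
    · exact h.sylow_le_of_m (hb.dvd_n h) (hb.idx_r h hv hvZ)
  have hRab : ∀ R : Sylow r G, ∀ v ∈ (R : Subgroup G), (R : Subgroup G) ≤ cl v := fun R v hv x hx =>
    mem_cl.2 ((sylow_core_of_solvable hall R).2 x hx v hv)
  -- r-elements centralized by a noncentral element of order prime to r have equal centralizers
  have eqc : ∀ w c c', ¬ r ∣ orderOf w → w ∉ center G → c ∈ cl w → IsEl r c → c ∉ center G →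
      c' ∈ cl w → IsEl r c' → c' ∉ center G → cl c = cl c' := by
    intro w c c' hwr hwZ hc hcr hcZ hc' hc'r hc'Z
    have hwm := hb.2.2.2 w hwr hwZ
    have hle := h.cl_le_of_commute hc (hcr.coprime hb.1 hwr).symm hwm
    have hle' := h.cl_le_of_commute hc' (hc'r.coprime hb.1 hwr).symm hwm
    have hp : IsPGroup r ↥(zpowers c ⊔ zpowers c') := by
      refine hcr.isPGroup.to_sup_of_normal_right' hc'r.isPGroup ?_
      rw [zpowers_le]
      refine mem_normalizer_of_cj ?_
      have hcc : Commute c c' := (mem_cl.1 (hle hc')).symm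
      rw [cj, MonoidHom.map_zpowers]
      simp [hcc.eq]
    obtain ⟨R, hR⟩ := hp.exists_le_sylow
    rw [hb.cl_eq_sup h (hb.idx_r h hcr hcZ) hwm hle R (hRab R c (hR (mem_sup_left (mem_zpowers c)))),
      hb.cl_eq_sup h (hb.idx_r h hc'r hc'Z) hwm hle' R (hRab R c' (hR (mem_sup_right (mem_zpowers c'))))]
  obtain ⟨S⟩ : Nonempty (Sylow s G) := inferInstance
  obtain ⟨y, hyS, hyZ, -, hyc⟩ := exists_y S.2 le_rfl
    (fun g hg a ha => mul_mem (mul_mem hg ha) (inv_mem hg)) (h.exists_el_sylow (hsm.mul_right n) S)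
  have hyr := (IsEl.of_mem_pGroup S.2 hyS).not_dvd hs hb.1 hsr
  obtain ⟨v0, hv0y, hv0r, hv0Z⟩ := hb.exists_r h y
  set H := cl v0 with hH
  have hHm : H.index = m := hb.idx_r h hv0r hv0Z
  have hSH : ∀ g ∈ (S : Subgroup G), cj g H = H := fun g hg => by
    rw [hH, ← cl_cj]
    refine eqc y _ v0 hyr hyZ ?_ (hv0r.cj g) (by rwa [conj_mem_center_iff]) hv0y hv0r hv0Z
    have h1 : g * v0 * g⁻¹ ∈ cl (g * y * g⁻¹) := by
      rw [cl_cj]; exact mem_cj.2 (by simpa [mul_assoc] using hv0y)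
    refine mem_cl.2 ?_
    have e := mem_cl.1 h1
    have hz := mem_center_iff.1 (hyc g hg)
    calc g * v0 * g⁻¹ * y = (g * y * g⁻¹ * y⁻¹)⁻¹ * (g * v0 * g⁻¹ * (g * y * g⁻¹)) := by
          rw [← mul_assoc, ← mem_center_iff.1 (inv_mem (hyc g hg)) (g * v0 * g⁻¹)]; group
      _ = (g * y * g⁻¹ * y⁻¹)⁻¹ * (g * y * g⁻¹ * (g * v0 * g⁻¹)) := by rw [e]
      _ = y * (g * v0 * g⁻¹) := by group
  have hHn : H.Normal := by
    rw [← normalizer_eq_top_iff, ← index_eq_one]
    by_contra hne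
    obtain ⟨q, hq, hqd⟩ := Nat.exists_prime_and_dvd hne
    have hqm : q ∣ m := hqd.trans (hHm ▸ index_dvd_of_le le_normalizer)
    obtain rfl : q = s := hb.prime_unique h hq hs hqm hsm
    exact sylow_idx_not_dvd S (fun g hg => mem_normalizer_of_cj (hSH g hg)) hqd
  have hcjH : ∀ g, cj g H = H := fun g => cj_of_mem_normalizer (by
    rw [normalizer_eq_top_iff.2 hHn]; exact mem_top g)
  have hRH : ∀ R : Sylow r G, (R : Subgroup G) ≤ H := fun R => by
    obtain ⟨Q, hQ⟩ := h.sylow_le_of_m (hb.dvd_n h) hHm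
    obtain ⟨g, hg⟩ := sylow_eq_cj Q R
    exact hg ▸ (cj_mono hQ).trans (hcjH g).le
  obtain ⟨v, R, hvR, hvZ, hvH⟩ : ∃ v, ∃ R : Sylow r G, v ∈ (R : Subgroup G) ∧ v ∉ center G ∧
      cl v ≠ H := by
    by_contra! hcon
    have htop : H = ⊤ := eq_top_iff.2 fun x _ => by
      obtain ⟨v, hv, w, hw, e, hvr, hwr⟩ := exists_decomp x hb.1
      obtain ⟨c, hcw, hcr, hcZ⟩ := hb.exists_r h w
      by_cases hvZ : v ∈ center G
      · obtain ⟨R, hR⟩ := exists_sylow_mem hcr
        rw [← hcon c R hR hcZ, e]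
        exact mul_mem (center_le_cl _ hvZ) (mem_cl_comm hcw)
      · obtain ⟨R, hR⟩ := exists_sylow_mem hvr
        rw [← hcon v R hR hvZ, e]
        exact mul_mem (self_mem_cl v) (mem_cl_of_mem_zpowers hw hv)
    rw [htop, index_top] at hHm
    exact h.hm.ne hHm
  have hvr := IsEl.of_mem_pGroup R.2 hvR
  set O := Cfsg.pPrimeCore r G with hO
  have hOn : O.Normal := Cfsg.pPrimeCore_normal r G
  have hOr : ∀ o ∈ O, ¬ r ∣ orderOf o := fun o ho hd =>
    Components.pPrimeCore_not_dvd r (hd.trans (orderOf_dvd_natCard O ho))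
  have hv0H : ∀ x ∈ H, x * v0 = v0 * x := fun x hx => mem_cl.1 hx
  have hOv0 : ∀ o ∈ O, o ∈ cl v0 := by
    intro o ho
    have h2 : v0 * (o * v0⁻¹ * o⁻¹) = 1 := by
      refine IsEl.eq_one hb.1 ?_ (hOr _ ?_)
      · refine hv0r.mul ?_ ?_
        · obtain ⟨k, hk⟩ := hv0r
          exact ⟨k, by rwa [orderOf_cj, orderOf_inv]⟩
        · refine (hv0H _ ?_).symm
          have hmem : o * v0⁻¹ * o⁻¹ ∈ cj o H :=
            mem_cj.2 (by simpa [mul_assoc] using inv_mem (self_mem_cl v0 : v0 ∈ H))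
          rwa [hcjH] at hmem
      · rw [show v0 * (o * v0⁻¹ * o⁻¹) = (v0 * o * v0⁻¹) * o⁻¹ by group]
        exact mul_mem (hOn.conj_mem o ho v0) (inv_mem ho)
    refine mem_cl.2 ?_
    calc o * v0 = (v0 * (o * v0⁻¹ * o⁻¹))⁻¹ * (v0 * o) := by group
      _ = v0 * o := by rw [h2, inv_one, one_mul]
  -- elements centralizing v normalize R
  have hnorm : ∀ v ∈ (R : Subgroup G), v ∉ center G → cl v ≠ H →
      ∀ g ∈ cl v, g ∈ normalizer ((R : Subgroup G) : Set G) := by
    intro v hv hvZ hvH g hg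
    have hvr := IsEl.of_mem_pGroup R.2 hv
    have hinf : ∀ o ∈ O, o ∈ cl v → o ∈ center G := by
      intro o ho hov
      by_contra hoZ
      exact hvH (eqc o v v0 (hOr o ho) hoZ (mem_cl_comm hov) hvr hvZ (mem_cl_comm (hOv0 o ho))
        hv0r hv0Z)
    refine mem_normalizer_of_cj (eq_of_le_of_card_ge (fun x hx => ?_)
      (card_map_of_injective (MulEquiv.injective _)).ge)
    rw [mem_cj] at hx
    have hxv : x ∈ cl v := by
      have := hRab R v hv hx
      have h3 := mul_mem (mul_mem hg this) (inv_mem hg)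
      simpa [mul_assoc] using h3
    have hxr : IsEl r x := by
      have := (IsEl.of_mem_pGroup R.2 hx).cj g
      simpa [mul_assoc] using this
    have hxJ : x ∈ (R : Subgroup G) ⊔ O := by
      have hn := (sylow_core_of_solvable hall R).1
      have h3 := hn.conj_mem _ (mem_sup_left hx) g
      simpa [mul_assoc] using h3
    obtain ⟨a, ha, o, ho, rfl⟩ := mem_sup_of_normal_right.1 hxJ
    have hov : o ∈ cl v := by
      have := mul_mem (inv_mem (hRab R v hv ha)) hxv
      simpa using this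
    have hoZ := hinf o ho hov
    have hor : IsEl r o := by
      have h4 : IsEl r (a⁻¹ * (a * o)) := by
        refine IsEl.mul (IsEl.of_mem_pGroup R.2 (inv_mem ha)) hxr ?_
        exact (Commute.mul_right (Commute.refl a) (mem_center_iff.1 hoZ a)).inv_left
      simpa using h4
    rw [IsEl.eq_one hb.1 hor (hOr o ho), mul_one]
    exact ha
  have hv0R : v0 ∈ (R : Subgroup G) := mem_sylow_of_le_cl hv0r R (hRH R)
  set W := (R : Subgroup G) ⊓ centralizer (H : Set G) with hW
  have hv0W : v0 ∈ W := ⟨hv0R, mem_centralizer_iff.2 hv0H⟩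
  have hWn : ∀ g ∈ normalizer ((R : Subgroup G) : Set G), ∀ e ∈ W, g * e * g⁻¹ ∈ W := by
    intro g hg e he
    refine ⟨(mem_normalizer_iff.1 hg e).1 he.1, mem_centralizer_iff.2 fun x hx => ?_⟩
    have hx' : g⁻¹ * x * g ∈ H := mem_cj.1 (by rw [hcjH]; exact hx)
    have e1 := mem_centralizer_iff.1 he.2 _ hx'
    calc x * (g * e * g⁻¹) = g * ((g⁻¹ * x * g) * e) * g⁻¹ := by group
      _ = g * (e * (g⁻¹ * x * g)) * g⁻¹ := by rw [e1]
      _ = g * e * g⁻¹ * x := by group
  -- the stabilizer of the coset v * W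
  let A : Subgroup G :=
    { carrier := {g | g ∈ normalizer ((R : Subgroup G) : Set G) ∧ v⁻¹ * (g * v * g⁻¹) ∈ W}
      one_mem' := ⟨one_mem _, by simp⟩
      mul_mem' := fun {g k} hg hk => ⟨mul_mem hg.1 hk.1, by
        have := mul_mem hg.2 (hWn g hg.1 _ hk.2)
        convert this using 1
        group⟩
      inv_mem' := fun {g} hg => ⟨inv_mem hg.1, by
        have := hWn g⁻¹ (inv_mem hg.1) _ (inv_mem hg.2)
        convert this using 1
        group⟩ }
  have hRA : (R : Subgroup G) ≤ A := fun g hg => ⟨le_normalizer hg, by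
    rw [mem_cl.1 (hRab R v hvR hg)]; simp⟩
  have hZA : center G ≤ A := fun g hg => ⟨mem_normalizer_of_cj (by
      ext x; rw [mem_cj, mul_assoc, mem_center_iff.1 hg x, inv_mul_cancel_left]), by
    rw [← mem_center_iff.1 hg v]; simp⟩
  obtain ⟨SA⟩ : Nonempty (Sylow s A) := inferInstance
  let Γ := {x : G // v⁻¹ * x ∈ W}
  letI : MulAction (SA : Subgroup A) Γ :=
    { smul := fun g x => ⟨(g : A).1 * x.1 * ((g : A).1)⁻¹, by
        have := mul_mem (g : A).2.2 (hWn _ (g : A).2.1 _ x.2)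
        convert this using 1
        group⟩
      one_smul := fun x => Subtype.ext (show (((1 : (SA : Subgroup A)) : A) : G) * x.1 *
        (((1 : (SA : Subgroup A)) : A) : G)⁻¹ = x.1 by simp)
      mul_smul := fun g k x => Subtype.ext (show (((g * k : (SA : Subgroup A)) : A) : G) * x.1 *
        (((g * k : (SA : Subgroup A)) : A) : G)⁻¹ =
        ((g : A) : G) * (((k : A) : G) * x.1 * ((k : A) : G)⁻¹) * ((g : A) : G)⁻¹ by simp [mul_assoc]) }
  have hΓ : ¬ s ∣ Nat.card Γ := by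
    have e : Nat.card Γ = Nat.card W :=
      Nat.card_congr ((Equiv.mulLeft v⁻¹).subtypeEquiv (fun x => Iff.rfl))
    obtain ⟨i, hi⟩ := IsPGroup.iff_card.1 (R.2.to_le (inf_le_left : W ≤ (R : Subgroup G)))
    rw [e, hi]
    exact fun hd => hsr ((Nat.prime_dvd_prime_iff_eq hs hb.1).1 (hs.dvd_of_dvd_pow hd))
  obtain ⟨⟨c, hc⟩, hfix⟩ := SA.2.nonempty_fixed_point_of_prime_not_dvd_card Γ hΓ
  have hcR : c ∈ (R : Subgroup G) := by
    have := mul_mem hvR hc.1
    simpa using this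
  have hcr := IsEl.of_mem_pGroup R.2 hcR
  have hAc : A ≤ cl c := by
    rw [← relIndex_eq_one]
    by_contra hne
    obtain ⟨q, hq, hqd⟩ := Nat.exists_prime_and_dvd hne
    have h1 : ((R : Subgroup G) ⊔ center G).relIndex A ∣ ((R : Subgroup G) ⊔ center G).index :=
      Dvd.intro _ (relIndex_mul_index (sup_le hRA hZA))
    have h2 : (cl c).relIndex A ∣ ((R : Subgroup G) ⊔ center G).relIndex A :=
      relIndex_dvd_of_le_left A (sup_le (hRab R c hcR) (center_le_cl c))
    have h3 := hqd.trans (h2.trans h1)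
    rcases hpr q hq (h3.trans (index_dvd_of_le le_sup_right)) with rfl | rfl
    · exact sylow_idx_not_dvd R le_sup_left h3
    · refine SA.not_dvd_index (hqd.trans (index_dvd_of_le fun g hg => ?_))
      rw [mem_subgroupOf, mem_cl]
      have := congrArg Subtype.val (hfix ⟨g, hg⟩)
      exact mul_inv_eq_iff_eq_mul.1 this
  have hcZ : c ∉ center G := fun hcZ => by
    refine hvH (h.eq_of_le_m (fun x hx => ?_) hHm hvZ).symm
    have e1 := mem_centralizer_iff.1 hc.2 x hx
    have e2 := mem_center_iff.1 hcZ x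
    have e3 : Commute x (c * (v⁻¹ * c)⁻¹) :=
      Commute.mul_right (e2 : Commute x c) (Commute.inv_right (e1 : Commute x (v⁻¹ * c)))
    refine mem_cl.2 ?_
    have e4 : c * (v⁻¹ * c)⁻¹ = v := by group
    rw [e4] at e3
    exact e3
  have hsub : ∀ u ∈ (R : Subgroup G), u ∉ center G → cl u ≠ H → (∀ g ∈ cl u, v⁻¹ * (g * v * g⁻¹) ∈ W ∨
      g ∉ normalizer ((R : Subgroup G) : Set G)) → cl u = cl c := by
    intro u hu huZ huH hg
    obtain ⟨w, hw, hwr, hwZ⟩ := hb.exists_r' h huZ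
    have hwN := hnorm u hu huZ huH w hw
    have hwA : w ∈ A := ⟨hwN, (hg w hw).resolve_right (not_not_intro hwN)⟩
    exact eqc w u c hwr hwZ (mem_cl_comm hw) (IsEl.of_mem_pGroup R.2 hu) huZ
      (mem_cl_comm (hAc hwA)) hcr hcZ
  have hcv : cl v = cl c := hsub v hvR hvZ hvH fun g hg => Or.inl (by rw [mem_cl.1 hg]; simp)
  have hv'R : v * v0 ∈ (R : Subgroup G) := mul_mem hvR hv0R
  have hv'aux : ∀ x, x ∈ cl (v * v0) → x ∈ cl v0 → x ∈ cl v := fun x h1 h2 => by
    have e3 : Commute x (v * v0 * v0⁻¹) :=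
      Commute.mul_right (mem_cl.1 h1 : Commute x (v * v0)) (Commute.inv_right (mem_cl.1 h2))
    rw [mul_inv_cancel_right] at e3
    exact mem_cl.2 e3
  have hnle : ¬ H ≤ cl v := fun hle => hvH (h.eq_of_le_m hle hHm hvZ).symm
  have hv'Z : v * v0 ∉ center G := fun hz => hnle fun x hx =>
    hv'aux x (cl_eq_top hz ▸ mem_top x) hx
  have hv'H : cl (v * v0) ≠ H := fun e => hnle fun x hx => hv'aux x (e ▸ hx) hx
  have hcv' : cl (v * v0) = cl c := hsub _ hv'R hv'Z hv'H fun g hg => by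
    by_cases hgN : g ∈ normalizer ((R : Subgroup G) : Set G)
    · left
      have e1 := mem_cl.1 hg
      have e2 : v⁻¹ * (g * v * g⁻¹) = v0 * (g * v0⁻¹ * g⁻¹) := by
        calc v⁻¹ * (g * v * g⁻¹) = v⁻¹ * (g * (v * v0)) * v0⁻¹ * g⁻¹ := by group
          _ = v⁻¹ * ((v * v0) * g) * v0⁻¹ * g⁻¹ := by rw [e1]
          _ = _ := by group
      rw [e2]
      exact mul_mem hv0W (hWn g hgN _ (inv_mem hv0W))
    · exact Or.inr hgN
  refine hvH (h.eq_of_le_m (fun x hx => ?_) (hb.idx_r h hvr hvZ) hv0Z)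
  have hx' : x ∈ cl (v * v0) := by rw [hcv', ← hcv]; exact hx
  have e3 : Commute x (v⁻¹ * (v * v0)) :=
    Commute.mul_right (Commute.inv_right (mem_cl.1 hx)) (mem_cl.1 hx')
  rw [inv_mul_cancel_left] at e3
  exact mem_cl.2 e3

end Cfsg.Agent.Lib.ClassOMN
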