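import Mathlib
import Cfsg.Agent.Lib.ClassOMN.Dichotomy
import Cfsg.Agent.Lib.Coprime.Abelian

/-!
Class sizes `1`, `m`, `m * n` when the centralizers of index `m` are abelian and conjugate.
-/

set_option autoImplicit false

namespace Cfsg.Agent.Lib.ClassOMN

open Subgroup

universe u

variable {G : Type u} [Group G] [Finite G] {m n : ℕ}

/-- The data of `Good` with a chosen subgroup. -/
structure GoodData (G : Type u) [Group G] (m n : ℕ) (D : Subgroup G) : Prop where
  hyp : Hyp G m n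
  comm : ∀ x ∈ D, ∀ y ∈ D, x * y = y * x
  index : D.index = m
  conj : ∀ b : G, (cl b).index = m → ∃ g, cl b = cj g D
  self : ∀ d ∈ D, d ∉ center G → cl d = D

namespace GoodData

variable {D : Subgroup G}

theorem le_cl (hd : GoodData G m n D) {x : G} (hx : x ∈ D) : D ≤ cl x :=
  fun y hy => mem_cl.2 (hd.comm y hy x hx)

theorem exists_cl (hd : GoodData G m n D) : ∃ a : G, idx a = m ∧ cl a = D := by
  obtain ⟨b, hb⟩ := hd.hyp.exists_m
  obtain ⟨g, hg⟩ := hd.conj b hb
  exact ⟨g⁻¹ * b * g⁻¹⁻¹, by rw [idx_cj]; exact hb, by rw [cl_cj, hg, cj_inv_cj]⟩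

theorem center_le (hd : GoodData G m n D) : center G ≤ D := by
  obtain ⟨a, -, ha⟩ := hd.exists_cl
  exact ha ▸ center_le_cl a

theorem relIndex_center (hd : GoodData G m n D) {u : G} (hu : idx u = m * n) :
    (center G).relIndex D = kk u * n := by
  obtain ⟨a, ha, hcl⟩ := hd.exists_cl
  rw [← hcl]
  exact hd.hyp.kk_m ha hu

theorem self_cj (hd : GoodData G m n D) {g x : G} (hx : x ∈ cj g D) (hxZ : x ∉ center G) :
    cl x = cj g D := by
  have e : x = g * (g⁻¹ * x * g) * g⁻¹ := by group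
  rw [e, cl_cj, hd.self _ (mem_cj.1 hx) (by rwa [← conj_mem_center_iff (g := g), ← e])]

theorem not_both (hd : GoodData G m n D) {u x g : G} (hu : idx u = m * n) (hx : x ∈ cl u)
    (hxD : x ∈ cj g D) : x ∈ center G := by
  by_contra hxZ
  have hu' : u ∈ cj g D := hd.self_cj hxD hxZ ▸ mem_cl_comm hx
  have h1 := hd.self_cj hu' (hd.hyp.not_mem_center (Or.inr hu))
  simp only [idx] at hu
  rw [h1, cj_index, hd.index] at hu
  exact hd.hyp.mn_gt.ne hu

theorem mem_D_of_cl (hd : GoodData G m n D) {g : G} {x : G} (hx : x ∈ D) (hxg : x ∈ cj g D)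
    (hxZ : x ∉ center G) : cj g D = D :=
  (hd.self_cj hxg hxZ).symm.trans (hd.self x hx hxZ)

theorem dvd_kk (hd : GoodData G m n D) {s : ℕ} (hs : s.Prime) (hsm : s ∣ m) {u : G}
    (hu : idx u = m * n) : s ∣ kk u := by
  have : Fact s.Prime := ⟨hs⟩
  obtain ⟨S⟩ : Nonempty (Sylow s G) := inferInstance
  obtain ⟨x, hx, hxZ⟩ := hd.hyp.exists_el_sylow (hsm.mul_right n) S
  have hk : s ∣ kk x := dvd_relIndex hs (self_mem_cl x) (IsEl.of_mem_pGroup S.2 hx) hxZ
  rcases hd.hyp.noncentral hxZ with e | e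
  · rw [hd.hyp.kk_m e hu] at hk
    exact (hs.dvd_mul.1 hk).resolve_right fun h2 => hd.hyp.not_dvd_m hs h2 hsm
  · rwa [hd.hyp.kk_eq (e.trans hu.symm)] at hk

theorem exists_el_D (hd : GoodData G m n D) {s : ℕ} (hs : s.Prime) (hsm : s ∣ m) :
    ∃ c ∈ D, IsEl s c ∧ c ∉ center G := by
  obtain ⟨u, hu⟩ := hd.hyp.exists_mn
  exact exists_el hs (by rw [hd.relIndex_center hu]; exact (hd.dvd_kk hs hsm hu).mul_right n)

theorem mem_sylowD (hd : GoodData G m n D) {p : ℕ} [Fact p.Prime] (T : Sylow p D) {x : G}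
    (hx : x ∈ D) (hxp : IsEl p x) : x ∈ (T : Subgroup D).map D.subtype :=
  ⟨⟨x, hx⟩, mem_sylow_of_le_cl (by rwa [IsEl, Subgroup.orderOf_mk]) T
    (fun a _ => mem_cl.2 (Subtype.ext (hd.comm a a.2 x hx))), rfl⟩

theorem sylowD_inv (hd : GoodData G m n D) {p : ℕ} [Fact p.Prime] (T : Sylow p D) {g : G}
    (hg : cj g D = D) {x : G} (hx : x ∈ (T : Subgroup D).map D.subtype) :
    g * x * g⁻¹ ∈ (T : Subgroup D).map D.subtype := by
  refine hd.mem_sylowD T ?_ ((IsEl.of_mem_pGroup (T.2.map _) hx).cj g)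
  rw [← hg]
  exact mem_cj.2 (by simpa [mul_assoc] using map_subtype_le _ hx)

/-- The number of cosets of `D` in its normalizer is less than the order of a Sylow subgroup modulo
the center, for a prime dividing `n`. -/
theorem relIndex_lt (hd : GoodData G m n D) {r : ℕ} [hr : Fact r.Prime] (hrn : r ∣ n)
    (R : Sylow r G) (hR : (R : Subgroup G) ≤ D) :
    D.relIndex (normalizer (D : Set G)) < (center G).relIndex (R : Subgroup G) := by
  have hrm := hd.hyp.not_dvd_m hr.out hrn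
  have hmem : ∀ x ∈ D, IsEl r x → x ∈ (R : Subgroup G) := fun x hx hxr =>
    mem_sylow_of_le_cl hxr R (hR.trans (hd.le_cl hx))
  have hinv : ∀ g ∈ normalizer (D : Set G), ∀ a ∈ (R : Subgroup G), g * a * g⁻¹ ∈ (R : Subgroup G) :=
    fun g hg a ha => hmem _ ((mem_normalizer_iff.1 hg a).1 (hR ha)) ((IsEl.of_mem_pGroup R.2 ha).cj g)
  have hdvd := semiregular_dvd (normalizer (D : Set G)) D (R : Subgroup G)
    (center G ⊓ (R : Subgroup G)) inf_le_right hinv
    (fun g hg b hb => ⟨conj_mem_center_iff.2 hb.1, hinv g hg b hb.2⟩)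
    (fun g _ a ha haB hga => hd.self a (hR ha) (fun hz => haB ⟨hz, ha⟩) ▸ mem_cl.2 hga)
    (fun g _ hgD a ha => hd.comm g hgD a (hR ha))
  set B := center G ⊓ (R : Subgroup G) with hB
  have e2 : Nat.card (R : Subgroup G) = Nat.card B * (center G).relIndex (R : Subgroup G) := by
    rw [← inf_relIndex_right (center G), ← hB, ← relIndex_bot_left, ← relIndex_bot_left,
      relIndex_mul_relIndex ⊥ B _ bot_le inf_le_right]
  rw [e2, ← Nat.mul_sub_one] at hdvd
  obtain ⟨i, hi⟩ := IsPGroup.iff_card.1 (R.2.to_le (inf_le_right : B ≤ (R : Subgroup G)))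
  rw [hi] at hdvd
  have hf : D.relIndex (normalizer (D : Set G)) ∣ m :=
    (Dvd.intro _ (relIndex_mul_index le_normalizer)).trans (dvd_of_eq hd.index)
  have hco : (D.relIndex (normalizer (D : Set G))).Coprime (r ^ i) :=
    ((hr.out.coprime_iff_not_dvd.2 hrm).symm.coprime_dvd_left hf).pow_right i
  have hd' := hco.dvd_of_dvd_mul_left hdvd
  have h1 : 1 < (center G).relIndex (R : Subgroup G) := by
    obtain ⟨v, hv, hvZ⟩ := hd.hyp.exists_el_sylow (hrn.trans (dvd_mul_left n m)) R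
    have hd2 : r ∣ (center G).relIndex (R : Subgroup G) :=
      dvd_relIndex hr.out hv (IsEl.of_mem_pGroup R.2 hv) hvZ
    exact lt_of_lt_of_le hr.out.one_lt (Nat.le_of_dvd (Nat.pos_of_ne_zero index_ne_zero_of_finite) hd2)
  have := Nat.le_of_dvd (by omega) hd'
  omega

/-- If `D` is not normal it has more conjugates than that. -/
theorem lt_index (hd : GoodData G m n D) {r : ℕ} [Fact r.Prime]
    (R : Sylow r G) (hR : (R : Subgroup G) ≤ D) (hne : normalizer (D : Set G) ≠ ⊤) :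
    (center G).relIndex (R : Subgroup G) < (normalizer (D : Set G)).index := by
  obtain ⟨g, hg⟩ : ∃ g, g ∉ normalizer (D : Set G) := by
    by_contra! hall
    exact hne (eq_top_iff.2 fun x _ => hall x)
  let x : G ⧸ normalizer (D : Set G) := QuotientGroup.mk g
  have hstab : MulAction.stabilizer (R : Subgroup G) x ≤ (center G).subgroupOf (R : Subgroup G) := by
    intro y hy
    rw [MulAction.mem_stabilizer_iff] at hy
    change ((↑((y : G) * g) : G ⧸ normalizer (D : Set G))) = ↑g at hy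
    rw [QuotientGroup.eq] at hy
    rw [mem_subgroupOf]
    by_contra hyZ
    apply hg
    have hyN : cj (y : G) (cj g D) = cj g D := by
      have := cj_of_mem_normalizer (inv_mem hy)
      rw [mul_inv_rev, inv_inv] at this
      calc cj (y : G) (cj g D) = cj g (cj (g⁻¹ * ((y : G) * g)) D) := by
            rw [cj_cj, cj_cj]; congr 1; group
        _ = cj g D := by rw [this]
    have hnorm : zpowers (y : G) ≤ normalizer ((cj g (R : Subgroup G) : Subgroup G) : Set G) := by
      rw [zpowers_le]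
      refine mem_normalizer_of_cj (eq_of_le_of_card_ge ?_
        (card_map_of_injective (MulEquiv.injective _)).ge)
      intro z hz
      have hzD : g⁻¹ * z * g ∈ D := by
        rw [← mem_cj (g := g), ← hyN]
        exact cj_mono (cj_mono hR) hz
      rw [mem_cj]
      refine mem_sylow_of_le_cl ?_ R (hR.trans (hd.le_cl hzD))
      have hz' := mem_cj.1 (mem_cj.1 hz)
      have := ((IsEl.of_mem_pGroup R.2 hz').cj g).cj (y : G)
      have := this.cj g⁻¹
      simpa [mul_assoc] using this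
    have hp : IsPGroup r ↥(zpowers (y : G) ⊔ cj g (R : Subgroup G)) :=
      ((IsEl.of_mem_pGroup R.2 y.2).isPGroup).to_sup_of_normal_right' (R.2.map _) hnorm
    obtain ⟨Q, hQ⟩ := hp.exists_le_sylow
    have hyg : (y : G) ∈ cj g (R : Subgroup G) := by
      have hcard : Nat.card (cj g (R : Subgroup G) : Subgroup G) = Nat.card (Q : Subgroup G) := by
        rw [card_map_of_injective (MulEquiv.injective _)]
        exact R.card_eq_multiplicity.trans Q.card_eq_multiplicity.symm
      rw [eq_of_le_of_card_ge (le_sup_right.trans hQ) hcard.ge]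
      exact hQ (mem_sup_left (mem_zpowers _))
    exact mem_normalizer_of_cj (hd.mem_D_of_cl (hR y.2) (cj_mono hR hyg) hyZ)
  have horb : MulAction.orbit (R : Subgroup G) x ≠ Set.univ := by
    intro e
    have h1 : (QuotientGroup.mk (1 : G) : G ⧸ normalizer (D : Set G)) ∈
        MulAction.orbit (R : Subgroup G) x := e ▸ Set.mem_univ _
    obtain ⟨y, hy⟩ := h1
    change ((↑((y : G) * g) : G ⧸ normalizer (D : Set G))) = ↑(1 : G) at hy
    rw [QuotientGroup.eq, mul_one, inv_mem_iff] at hy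
    exact hg (((normalizer (D : Set G)).mul_mem_cancel_left (le_normalizer (hR y.2))).1 hy)
  calc (center G).relIndex (R : Subgroup G) ≤ (MulAction.stabilizer (R : Subgroup G) x).index :=
        Nat.le_of_dvd (Nat.pos_of_ne_zero index_ne_zero_of_finite) (index_dvd_of_le hstab)
    _ = (MulAction.orbit (R : Subgroup G) x).ncard := by rw [MulAction.index_stabilizer]
    _ < Nat.card (G ⧸ normalizer (D : Set G)) := Set.ncard_lt_card horb
    _ = _ := (index_eq_card _).symm

/-- For each prime the part of the number of conjugates is bounded by that of `|N(D) : D|`. -/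
theorem index_normalizer_dvd (hd : GoodData G m n D) :
    (normalizer (D : Set G)).index ∣ D.relIndex (normalizer (D : Set G)) := by
  set N := normalizer (D : Set G) with hN
  have hDN : D ≤ N := le_normalizer
  refine (Nat.factorization_prime_le_iff_dvd index_ne_zero_of_finite index_ne_zero_of_finite).1
    fun s hs => ?_
  by_cases hsN : s ∣ N.index
  swap
  · simp [Nat.factorization_eq_zero_of_not_dvd hsN]
  have hsm : s ∣ m := hsN.trans (hd.index ▸ index_dvd_of_le hDN)
  have hsn : ¬ s ∣ n := fun h2 => hd.hyp.not_dvd_m hs h2 hsm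
  have : Fact s.Prime := ⟨hs⟩
  obtain ⟨u, hu⟩ := hd.hyp.exists_mn
  obtain ⟨T⟩ : Nonempty (Sylow s D) := inferInstance
  set T' := (T : Subgroup D).map D.subtype with hT'
  have hT'D : T' ≤ D := map_subtype_le _
  obtain ⟨S, hS⟩ := (T.2.map D.subtype).exists_le_sylow
  set S0 := (S : Subgroup G) ⊓ N with hS0
  have hTS0 : T' ≤ S0 := le_inf hS (hT'D.trans hDN)
  obtain ⟨c, hcD, hcs, hcZ⟩ := hd.exists_el_D hs hsm
  obtain ⟨d, hdT, hdZ, -, hdc⟩ := exists_y (S := S0) (A := T') (S.2.to_le inf_le_left) hTS0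
    (fun g hg a ha => hd.sylowD_inv T (cj_of_mem_normalizer hg.2) ha)
    ⟨c, hd.mem_sylowD T hcD hcs, hcZ⟩
  obtain ⟨y, hyS, hyZ, -, hyc⟩ := exists_y S.2 le_rfl
    (fun g hg a ha => mul_mem (mul_mem hg ha) (inv_mem hg)) (hd.hyp.exists_el_sylow (hsm.mul_right n) S)
  set C := (S : Subgroup G) ⊓ cl y with hC
  have hmemC : ∀ g ∈ (S : Subgroup G), g * d * g⁻¹ * d⁻¹ ∈ C := by
    intro g hg
    have hdS : d ∈ (S : Subgroup G) := hS hdT
    refine mem_inf.2 ⟨mul_mem (mul_mem (mul_mem hg hdS) (inv_mem hg)) (inv_mem hdS), ?_⟩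
    have hz : ∀ k ∈ (S : Subgroup G), ∃ z ∈ center G, k * y = z * y * k := fun k hk =>
      ⟨k * y * k⁻¹ * y⁻¹, hyc k hk, by group⟩
    obtain ⟨a, ha, hga⟩ := hz g hg
    obtain ⟨b, hb, hdb⟩ := hz d hdS
    have hga' : g⁻¹ * y = a⁻¹ * y * g⁻¹ := by
      calc g⁻¹ * y = g⁻¹ * a⁻¹ * (a * y * g) * g⁻¹ := by group
        _ = g⁻¹ * a⁻¹ * (g * y) * g⁻¹ := by rw [← hga]
        _ = g⁻¹ * (a⁻¹ * g) * y * g⁻¹ := by group
        _ = g⁻¹ * (g * a⁻¹) * y * g⁻¹ := by rw [mem_center_iff.1 (inv_mem ha) g]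
        _ = _ := by group
    have hdb' : d⁻¹ * y = b⁻¹ * y * d⁻¹ := by
      calc d⁻¹ * y = d⁻¹ * b⁻¹ * (b * y * d) * d⁻¹ := by group
        _ = d⁻¹ * b⁻¹ * (d * y) * d⁻¹ := by rw [← hdb]
        _ = d⁻¹ * (b⁻¹ * d) * y * d⁻¹ := by group
        _ = d⁻¹ * (d * b⁻¹) * y * d⁻¹ := by rw [mem_center_iff.1 (inv_mem hb) d]
        _ = _ := by group
    have hcb : ∀ x : G, x * b = b * x := mem_center_iff.1 hb
    have hca : ∀ x : G, x * a = a * x := mem_center_iff.1 ha
    have hca' : ∀ x : G, x * a⁻¹ = a⁻¹ * x := mem_center_iff.1 (inv_mem ha)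
    have hcb' : ∀ x : G, x * b⁻¹ = b⁻¹ * x := mem_center_iff.1 (inv_mem hb)
    refine mem_cl.2 ?_
    calc g * d * g⁻¹ * d⁻¹ * y = g * d * g⁻¹ * (b⁻¹ * y * d⁻¹) := by rw [← hdb']; group
      _ = b⁻¹ * (g * d * (g⁻¹ * y) * d⁻¹) := by
          rw [← mul_assoc _ (b⁻¹ * y) d⁻¹, ← mul_assoc _ b⁻¹ y, hcb' (g * d * g⁻¹)]; group
      _ = b⁻¹ * (g * d * (a⁻¹ * y * g⁻¹) * d⁻¹) := by rw [hga']
      _ = b⁻¹ * a⁻¹ * (g * (d * y) * g⁻¹ * d⁻¹) := by
          rw [← mul_assoc (g * d) (a⁻¹ * y) g⁻¹, ← mul_assoc (g * d) a⁻¹ y, hca' (g * d)]; group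
      _ = b⁻¹ * a⁻¹ * (g * (b * y * d) * g⁻¹ * d⁻¹) := by rw [hdb]
      _ = b⁻¹ * a⁻¹ * b * (g * y * (d * g⁻¹ * d⁻¹)) := by
          rw [← mul_assoc g (b * y) d, ← mul_assoc g b y, hcb g]; group
      _ = b⁻¹ * a⁻¹ * b * (a * y * g * (d * g⁻¹ * d⁻¹)) := by rw [hga]
      _ = y * (g * d * g⁻¹ * d⁻¹) := by
          rw [mul_assoc b⁻¹ a⁻¹ b, hcb a⁻¹]; group
  -- orbit of the coset of d
  have horbit : N.relIndex (S : Subgroup G) ≤ (center G).relIndex C := by
    let f : (S : Subgroup G) ⧸ N.subgroupOf (S : Subgroup G) → C ⧸ (center G).subgroupOf C :=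
      fun q => QuotientGroup.mk ⟨(q.out : G) * d * (q.out : G)⁻¹ * d⁻¹, hmemC _ q.out.2⟩
    refine Nat.card_le_card_of_injective f fun q q' e => ?_
    have h1 := (QuotientGroup.eq.1 e)
    rw [mem_subgroupOf] at h1
    rw [← QuotientGroup.out_eq' q, ← QuotientGroup.out_eq' q', QuotientGroup.eq, mem_subgroupOf]
    simp only [coe_mul, coe_inv] at h1 ⊢
    set g : G := (q.out : G)
    set k : G := (q'.out : G)
    refine mem_normalizer_of_cj ?_
    -- the conjugates of d differ by a central element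
    have h3 : (g * d * g⁻¹)⁻¹ * (k * d * k⁻¹) ∈ center G := by
      have := conj_mem_center_iff (g := d⁻¹) |>.2 h1
      convert this using 1
      group
    have h4 : d⁻¹ * ((g⁻¹ * k) * d * (g⁻¹ * k)⁻¹) ∈ center G := by
      have := conj_mem_center_iff (g := g⁻¹) |>.2 h3
      convert this using 1
      group
    have h5 : cl ((g⁻¹ * k) * d * (g⁻¹ * k)⁻¹) = cl d := by
      set z := d⁻¹ * ((g⁻¹ * k) * d * (g⁻¹ * k)⁻¹) with hz
      have e2 : (g⁻¹ * k) * d * (g⁻¹ * k)⁻¹ = d * z := by rw [hz, mul_inv_cancel_left]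
      rw [e2]
      refine le_antisymm (fun w hw => ?_) ((le_inf le_rfl (cl_eq_top h4 ▸ le_top)).trans (inf_le_cl_mul d z))
      have hcm : Commute w (d * z * z⁻¹) :=
        Commute.mul_right (mem_cl.1 hw) (mem_center_iff.1 (inv_mem h4) w)
      rw [mul_inv_cancel_right] at hcm
      exact mem_cl.2 hcm
    rwa [cl_cj, hd.self d (hT'D hdT) hdZ] at h5
  have hkC : (center G).relIndex C ≤ s ^ (kk u).factorization s := by
    obtain ⟨Q, hQ⟩ := (S.2.comap_subtype (K := cl y)).exists_le_sylow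
    have hCQ : C ≤ (Q : Subgroup (cl y)).map (cl y).subtype := fun x hx =>
      ⟨⟨x, hx.2⟩, hQ (mem_subgroupOf.2 hx.1 : (⟨x, hx.2⟩ : cl y) ∈ (S : Subgroup G).subgroupOf (cl y)), rfl⟩
    have e1 : ((center G).relIndex ((Q : Subgroup (cl y)).map (cl y).subtype)) =
        s ^ (kk u).factorization s := by
      rw [relIndex_center_sylow Q]
      rcases hd.hyp.noncentral hyZ with e | e
      · rw [show (center G).relIndex (cl y) = kk u * n from hd.hyp.kk_m e hu,
          Nat.factorization_mul (kk_pos u).ne' (by have := hd.hyp.hn; omega)]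
        simp [Nat.factorization_eq_zero_of_not_dvd hsn]
      · rw [show (center G).relIndex (cl y) = kk u from hd.hyp.kk_eq (e.trans hu.symm)]
    exact e1 ▸ relIndex_le_of_le_right hCQ index_ne_zero_of_finite
  obtain ⟨j, hj⟩ : ∃ j, N.relIndex (S : Subgroup G) = s ^ j := S.2.index (N.subgroupOf S)
  show N.index.factorization s ≤ (D.relIndex N).factorization s
  have hlow : N.index.factorization s ≤ j := by
    have e := relIndex_mul_index (inf_le_left : (S : Subgroup G) ⊓ N ≤ S)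
    rw [inf_relIndex_left, hj] at e
    have h1 : s ^ N.index.factorization s ∣ s ^ j * (S : Subgroup G).index :=
      (Nat.ordProj_dvd N.index s).trans (e ▸ index_dvd_of_le inf_le_right)
    have h2 := (Nat.Coprime.pow_left _ (hs.coprime_iff_not_dvd.2 S.not_dvd_index)).dvd_of_dvd_mul_right h1
    exact (Nat.pow_dvd_pow_iff_le_right hs.one_lt).1 h2
  rcases Nat.eq_zero_or_pos j with hj0 | hj0
  · omega
  have hS0ne : S0.subgroupOf (S : Subgroup G) < ⊤ := by
    refine lt_top_iff_ne_top.2 fun e => ?_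
    have h1 : N.relIndex (S : Subgroup G) = 1 :=
      relIndex_eq_one.2 fun x hx => by
        have h' : (⟨x, hx⟩ : (S : Subgroup G)) ∈ S0.subgroupOf (S : Subgroup G) := e ▸ mem_top _
        exact (mem_inf.1 (mem_subgroupOf.1 h')).2
    rw [hj] at h1
    have := Nat.one_lt_pow hj0.ne' hs.one_lt
    omega
  have : Group.IsNilpotent (S : Subgroup G) := S.2.isNilpotent
  obtain ⟨⟨g, hgS⟩, hg, hgS0⟩ := SetLike.exists_of_lt
    (Group.normalizerCondition_of_isNilpotent _ hS0ne)
  have hgN : g ∉ N := fun hN' => hgS0 (mem_subgroupOf.2 ⟨hgS, hN'⟩)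
  set T2 := cj g T' with hT2
  have hT2S0 : T2 ≤ S0 := by
    intro x hx
    have hx0 : g⁻¹ * x * g ∈ S0 := hTS0 (mem_cj.1 hx)
    have := (mem_normalizer_iff.1 hg ⟨g⁻¹ * x * g, hx0.1⟩).1 (mem_subgroupOf.2 hx0)
    rw [mem_subgroupOf] at this
    simpa [mul_assoc] using this
  have hTD : D ⊓ T2 ≤ center G := by
    rintro x ⟨hxD, hx2⟩
    by_contra hxZ
    exact hgN (mem_normalizer_of_cj (hd.mem_D_of_cl hxD (cj_mono hT'D hx2) hxZ))
  have hk : s ^ (kk u).factorization s ≤ D.relIndex S0 := by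
    calc s ^ (kk u).factorization s = (center G).relIndex T2 := by
          rw [hT2, relIndex_center_cj, hT', relIndex_center_sylow T, hd.relIndex_center hu,
            Nat.factorization_mul (kk_pos u).ne' (by have := hd.hyp.hn; omega)]
          simp [Nat.factorization_eq_zero_of_not_dvd hsn]
      _ ≤ (D ⊓ T2).relIndex T2 := relIndex_le_of_le_left hTD index_ne_zero_of_finite
      _ = D.relIndex T2 := inf_relIndex_right _ _
      _ ≤ D.relIndex S0 := relIndex_le_of_le_right hT2S0 index_ne_zero_of_finite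
  obtain ⟨i, hi⟩ : ∃ i, D.relIndex S0 = s ^ i :=
    (S.2.to_le (inf_le_left : S0 ≤ S)).index (D.subgroupOf S0)
  have hfi : i ≤ (D.relIndex N).factorization s := by
    have h1 : D.relIndex S0 ∣ D.relIndex N := by
      rw [← relIndex_subgroupOf (inf_le_right : S0 ≤ N)]
      have : (D.subgroupOf N).Normal := normal_subgroupOf_of_le_normalizer le_rfl
      exact relIndex_dvd_index_of_normal _ _
    rw [hi] at h1
    exact (hs.pow_dvd_iff_le_factorization index_ne_zero_of_finite).1 h1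
  have h3 : j ≤ i := (Nat.pow_le_pow_iff_right hs.one_lt).1
    (hj ▸ hi ▸ (horbit.trans hkC).trans hk)
  omega

theorem normal (hd : GoodData G m n D) : D.Normal := by
  rw [← normalizer_eq_top_iff]
  by_contra hne
  obtain ⟨r, hr, hrn⟩ := Nat.exists_prime_and_dvd hd.hyp.hn.ne'
  have : Fact r.Prime := ⟨hr⟩
  obtain ⟨R, hR⟩ := exists_sylow_le (r := r) (H := D)
    (hd.index ▸ hd.hyp.not_dvd_m hr hrn)
  have h1 := hd.lt_index R hR hne
  have h2 := hd.relIndex_lt hrn R hR
  have h3 : (normalizer (D : Set G)).index ≤ D.relIndex (normalizer (D : Set G)) :=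
    Nat.le_of_dvd (Nat.pos_of_ne_zero index_ne_zero_of_finite) hd.index_normalizer_dvd
  omega

end GoodData

end Cfsg.Agent.Lib.ClassOMN
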