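import Mathlib
import Cfsg.Agent.Lib.ClassOMN.Good
import Cfsg.Agent.Lib.Coprime.Abelian

/-!
Class sizes `1`, `m`, `m * n`: the structure of the group in the configuration `Good`.
-/

set_option autoImplicit false

namespace Cfsg.Agent.Lib.ClassOMN

open Subgroup
open scoped commutatorElement

universe u

variable {G : Type u} [Group G] [Finite G] {m n : ℕ} {D : Subgroup G}

namespace GoodData

theorem cj_D (hd : GoodData G m n D) (g : G) : cj g D = D :=
  cj_of_mem_normalizer (by rw [normalizer_eq_top_iff.2 hd.normal]; exact mem_top g)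

theorem cl_eq_D (hd : GoodData G m n D) {b : G} (hb : idx b = m) : cl b = D := by
  obtain ⟨g, hg⟩ := hd.conj b hb
  rw [hg, hd.cj_D]

theorem idx_of_not_mem (hd : GoodData G m n D) {x : G} (hx : x ∉ D) : idx x = m * n :=
  (hd.hyp.noncentral fun hz => hx (hd.center_le hz)).resolve_left fun e =>
    hx (hd.cl_eq_D e ▸ self_mem_cl x)

theorem idx_cases_of_mem (hd : GoodData G m n D) {x : G} (hx : x ∈ D) : idx x = 1 ∨ idx x = m := by
  by_cases hZ : x ∈ center G
  · exact Or.inl (idx_eq_one_iff.2 hZ)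
  · exact Or.inr (by rw [idx, hd.self x hx hZ]; exact hd.index)

theorem el_mem_sylow (hd : GoodData G m n D) {p : ℕ} [Fact p.Prime] (S : Sylow p G) {x : G}
    (hx : x ∈ D) (hxp : IsEl p x) : x ∈ (S : Subgroup G) := by
  obtain ⟨T⟩ : Nonempty (Sylow p D) := inferInstance
  have : ((T : Subgroup D).map D.subtype).Normal := ⟨fun a ha g => hd.sylowD_inv T (hd.cj_D g) ha⟩
  exact (S.3 ((T.2.map D.subtype).to_sup_of_normal_left S.2) le_sup_right) ▸
    mem_sup_left (hd.mem_sylowD T hx hxp)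

/-- For a prime dividing `m`, the part of `kk` is at most the part of `m`. -/
theorem part_kk_le (hd : GoodData G m n D) {s : ℕ} (hs : s.Prime) (hsm : s ∣ m) {u0 : G}
    (hu0 : idx u0 = m * n) :
    s ^ (kk u0).factorization s ≤ s ^ m.factorization s := by
  have : Fact s.Prime := ⟨hs⟩
  obtain ⟨S⟩ : Nonempty (Sylow s G) := inferInstance
  obtain ⟨u, huS, huD⟩ : ∃ u ∈ (S : Subgroup G), u ∉ D := by
    by_contra! hle
    exact sylow_idx_not_dvd S hle (hd.index ▸ hsm)
  have hus := IsEl.of_mem_pGroup S.2 huS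
  have hum := hd.idx_of_not_mem huD
  obtain ⟨T⟩ : Nonempty (Sylow s (cl u)) := inferInstance
  obtain ⟨S1, hS1⟩ := (T.2.map (cl u).subtype).exists_le_sylow
  set U := (T : Subgroup (cl u)).map (cl u).subtype with hU
  have hUD : D ⊓ U ≤ center G := fun x hx =>
    hd.not_both hum (g := 1) (map_subtype_le _ hx.2) (by rw [cj_one]; exact hx.1)
  calc s ^ (kk u0).factorization s = (center G).relIndex U := by
        rw [hU, relIndex_center_sylow T, hd.hyp.kk_eq (hu0.trans hum.symm)]
    _ ≤ (D ⊓ U).relIndex U := relIndex_le_of_le_left hUD index_ne_zero_of_finite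
    _ = D.relIndex U := inf_relIndex_right _ _
    _ ≤ D.relIndex S1 := relIndex_le_of_le_right hS1 index_ne_zero_of_finite
    _ = s ^ m.factorization s := by rw [relIndex_sylow_eq S1 (fun g _ => hd.cj_D g), hd.index]

/-- Two primes dividing `m` give a strict inequality. -/
theorem part_m_lt (hd : GoodData G m n D) {s t : ℕ} (hs : s.Prime) (ht : t.Prime) (hst : s ≠ t)
    (htm : t ∣ m) {u0 : G} (hu0 : idx u0 = m * n) :
    s ^ m.factorization s < t ^ (kk u0).factorization t := by
  have : Fact s.Prime := ⟨hs⟩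
  have : Fact t.Prime := ⟨ht⟩
  obtain ⟨S⟩ : Nonempty (Sylow s G) := inferInstance
  obtain ⟨T⟩ : Nonempty (Sylow t D) := inferInstance
  set A := (T : Subgroup D).map D.subtype with hA
  set B := center G ⊓ A with hB
  have hAD : A ≤ D := map_subtype_le _
  have hAt : IsPGroup t A := T.2.map _
  have hinv : ∀ g ∈ (S : Subgroup G), ∀ a ∈ A, g * a * g⁻¹ ∈ A :=
    fun g _ a ha => hd.sylowD_inv T (hd.cj_D g) ha
  have hdvd := semiregular_dvd (S : Subgroup G) D A B inf_le_right hinv
    (fun g hg b hb => ⟨conj_mem_center_iff.2 hb.1, hinv g hg b hb.2⟩)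
    (fun g _ a ha haB hga => hd.self a (hAD ha) (fun hz => haB ⟨hz, ha⟩) ▸ mem_cl.2 hga)
    (fun g _ hgD a ha => hd.comm g hgD a (hAD ha))
  have e1 : B.relIndex A = t ^ (kk u0).factorization t := by
    rw [hB, inf_relIndex_right, hA, relIndex_center_sylow T, hd.relIndex_center hu0,
      Nat.factorization_mul (kk_pos u0).ne' (by have := hd.hyp.hn; omega)]
    simp [Nat.factorization_eq_zero_of_not_dvd
      (fun h2 => hd.hyp.not_dvd_m ht h2 htm : ¬ t ∣ n)]
  have e2 : Nat.card A = Nat.card B * t ^ (kk u0).factorization t := by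
    rw [← e1, ← relIndex_bot_left, ← relIndex_bot_left,
      relIndex_mul_relIndex ⊥ B A bot_le inf_le_right]
  rw [relIndex_sylow_eq S (fun g _ => hd.cj_D g), hd.index, e2, ← Nat.mul_sub_one] at hdvd
  obtain ⟨i, hi⟩ := IsPGroup.iff_card.1 (hAt.to_le (inf_le_right : B ≤ A))
  rw [hi] at hdvd
  have hdvd' := (Nat.Coprime.pow _ i ((Nat.coprime_primes hs ht).2 hst)).dvd_of_dvd_mul_left hdvd
  have he : (kk u0).factorization t ≠ 0 :=
    (ht.factorization_pos_of_dvd (kk_pos u0).ne' (hd.dvd_kk ht htm hu0)).ne'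
  have h1 : 1 < t ^ (kk u0).factorization t := Nat.one_lt_pow he ht.one_lt
  have := Nat.le_of_dvd (by omega) hdvd'
  omega

theorem m_eq_pow (hd : GoodData G m n D) : ∃ s e, s.Prime ∧ 0 < e ∧ m = s ^ e := by
  obtain ⟨s, hs, hsm⟩ := Nat.exists_prime_and_dvd hd.hyp.hm.ne'
  obtain ⟨u0, hu0⟩ := hd.hyp.exists_mn
  have hm0 : m ≠ 0 := by have := hd.hyp.hm; omega
  refine ⟨s, m.primeFactorsList.length, hs, ?_, ?_⟩
  · rcases Nat.eq_zero_or_pos m.primeFactorsList.length with h0 | h0
    · rw [List.length_eq_zero_iff, Nat.primeFactorsList_eq_nil] at h0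
      have := hd.hyp.hm; omega
    · exact h0
  · refine Nat.eq_prime_pow_of_unique_prime_dvd hm0 fun {t} ht htm => ?_
    by_contra hne
    have a1 := hd.part_kk_le hs hsm hu0
    have a2 := hd.part_m_lt hs ht (Ne.symm hne) htm hu0
    have a3 := hd.part_kk_le ht htm hu0
    have a4 := hd.part_m_lt ht hs hne hsm hu0
    omega

theorem mem_of_not_dvd (hd : GoodData G m n D) {s e : ℕ} (hs : s.Prime) (hm : m = s ^ e) {x : G}
    (hx : ¬ s ∣ orderOf x) : x ∈ D := by
  have := hd.normal
  refine zpow_mem_of_coprime (a := orderOf x) (b := m) ?_ ?_ ?_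
  · rw [pow_orderOf_eq_one]; exact one_mem _
  · rw [← hd.index]; exact pow_index_mem D x
  · rw [hm]; exact ((hs.coprime_iff_not_dvd.2 hx).symm).pow_right e

/-- The `s`-th powers in a Sylow `s`-subgroup lie in `D`. -/
theorem pow_mem_D (hd : GoodData G m n D) {s : ℕ} [hs : Fact s.Prime] (hsm : s ∣ m) (S : Sylow s G)
    {g : G} (hg : g ∈ (S : Subgroup G)) : g ^ s ∈ D := by
  obtain ⟨c, hcD, hcs, hcZ⟩ := hd.exists_el_D hs.out hsm
  obtain ⟨d, hd0, hdZ, hds, hdc⟩ := exists_y (A := (S : Subgroup G) ⊓ D) S.2 inf_le_left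
    (fun g hg a ha => mem_inf.2 ⟨mul_mem (mul_mem hg ha.1) (inv_mem hg),
      hd.normal.conj_mem a ha.2 g⟩) ⟨c, ⟨hd.el_mem_sylow S hcD hcs, hcD⟩, hcZ⟩
  rw [← hd.self d hd0.2 hdZ, mem_cl]
  set z := g * d * g⁻¹ * d⁻¹ with hz
  have hzc := mem_center_iff.1 (hdc g hg)
  have key : ∀ i : ℕ, g ^ i * d = z ^ i * d * g ^ i := by
    intro i
    induction i with
    | zero => simp
    | succ i ih =>
      have hzi : g * z ^ i = z ^ i * g := (mem_center_iff.1 (pow_mem (hdc g hg) i) g)
      calc g ^ (i + 1) * d = g * (g ^ i * d) := by rw [pow_succ']; group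
        _ = g * z ^ i * d * g ^ i := by rw [ih]; group
        _ = z ^ i * (g * d * g⁻¹) * g * g ^ i := by rw [hzi]; group
        _ = z ^ i * (z * d) * g * g ^ i := by rw [hz]; group
        _ = z ^ (i + 1) * d * g ^ (i + 1) := by rw [pow_succ, pow_succ']; group
  have hzs : z ^ s = 1 := by
    have hzd : Commute z d := (hzc d).symm
    have e1 : (g * d * g⁻¹) ^ s = z ^ s * d ^ s := by
      rw [← hzd.mul_pow]
      congr 1
      rw [hz]; group
    rw [conj_pow, mem_center_iff.1 hds g, mul_inv_cancel_right] at e1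
    exact mul_eq_right.1 e1.symm
  rw [key s, hzs, one_mul]

theorem m_prime (hd : GoodData G m n D) : m.Prime := by
  obtain ⟨s, e, hs, he, hme⟩ := hd.m_eq_pow
  rcases Nat.lt_or_ge e 2 with h2 | h2
  · obtain rfl : e = 1 := by omega
    rw [hme, pow_one]; exact hs
  exfalso
  have : Fact s.Prime := ⟨hs⟩
  have hDn := hd.normal
  have hsm : s ∣ m := hme ▸ dvd_pow_self s (by omega)
  obtain ⟨r, hr, hrn⟩ := Nat.exists_prime_and_dvd hd.hyp.hn.ne'
  have : Fact r.Prime := ⟨hr⟩
  obtain ⟨R, hR⟩ := exists_sylow_le (r := r) (H := D) (hd.index ▸ hd.hyp.not_dvd_m hr hrn)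
  have hRn : (R : Subgroup G).Normal := ⟨fun a ha g => mem_sylow_of_le_cl
    ((IsEl.of_mem_pGroup R.2 ha).cj g) R (hR.trans (hd.le_cl (hDn.conj_mem a (hR ha) g)))⟩
  have hexp : ∀ a : G ⧸ D, a ^ s = 1 := by
    intro a
    obtain ⟨g, rfl⟩ := QuotientGroup.mk'_surjective D a
    obtain ⟨v, hv, w, hw, e', hvs, hws⟩ := exists_decomp g hs
    have hwD := hd.mem_of_not_dvd hs hme hws
    obtain ⟨S, hS⟩ := exists_sylow_mem hvs
    rw [e', map_mul, show QuotientGroup.mk' D w = 1 from (QuotientGroup.eq_one_iff w).2 hwD, mul_one,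
      ← map_pow]
    exact (QuotientGroup.eq_one_iff _).2 (hd.pow_mem_D hsm S hS)
  have hcard : s ^ 2 ∣ Nat.card (G ⧸ D) := by
    rw [← index_eq_card, hd.index, hme]; exact pow_dvd_pow s h2
  obtain ⟨A, hA⟩ := Sylow.exists_subgroup_card_pow_prime s hcard
  letI : CommGroup (R : Subgroup G) :=
    { (inferInstance : Group (R : Subgroup G)) with
      mul_comm := fun a b => Subtype.ext (hd.comm a (hR a.2) b (hR b.2)) }
  let φ : G ⧸ D →* MulAut (R : Subgroup G) := QuotientGroup.lift D (MulAut.conjNormal)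
    fun g hg => by
      ext a
      rw [MulAut.conjNormal_apply, hd.comm g hg a (hR a.2), mul_inv_cancel_right]
      rfl
  letI := Fintype.ofFinite A
  have hcop : s.Coprime (Nat.card (R : Subgroup G)) := by
    obtain ⟨i, hi⟩ := IsPGroup.iff_card.1 R.2
    rw [hi]
    exact ((Nat.coprime_primes hs hr).2 fun e' => hd.hyp.not_dvd_m hr hrn (e' ▸ hsm)).pow_right i
  have htop := Coprime.eq_top_of_fixed_mem (φ.comp A.subtype) hs
    (fun a => Subtype.ext (by rw [SubgroupClass.coe_pow, hexp, coe_one])) hA hcop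
    ((center G).subgroupOf (R : Subgroup G)) (fun a ha w hw => by
      rw [mem_subgroupOf]
      by_contra hwZ
      obtain ⟨g, hg⟩ := QuotientGroup.mk'_surjective D a.1
      have hgD : g ∉ D := fun h' => ha (Subtype.ext (by
        rw [← hg, show QuotientGroup.mk' D g = 1 from (QuotientGroup.eq_one_iff g).2 h', coe_one]))
      refine hgD (hd.self w (hR w.2) hwZ ▸ mem_cl.2 ?_)
      have e' := congrArg Subtype.val hw
      rw [MonoidHom.comp_apply, coe_subtype, ← hg] at e'
      exact mul_inv_eq_iff_eq_mul.1 e')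
  obtain ⟨v, hv, hvZ⟩ := hd.hyp.exists_el_sylow (hrn.trans (dvd_mul_left n m)) R
  exact hvZ (mem_subgroupOf.1 (htop ▸ mem_top (⟨v, hv⟩ : (R : Subgroup G))))

theorem kk_eq_m (hd : GoodData G m n D) {u : G} (hu : idx u = m * n) : kk u = m := by
  have hmp := hd.m_prime
  have hk0 := (kk_pos u).ne'
  refine Nat.dvd_antisymm ?_ (hd.dvd_kk hmp dvd_rfl hu)
  refine (Nat.factorization_prime_le_iff_dvd hk0 hmp.ne_zero).1 fun t ht => ?_
  by_cases htm : t = m
  · subst htm
    exact (Nat.pow_le_pow_iff_right ht.one_lt).1 (hd.part_kk_le ht dvd_rfl hu)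
  · by_contra hlt
    have hdvd : t ∣ kk u :=
      Nat.dvd_of_factorization_pos (by intro h0; omega)
    obtain ⟨c, hc, hct, hcZ⟩ := exists_el ht hdvd
    have hcD : c ∈ D := hd.mem_of_not_dvd hmp (pow_one m).symm (hct.not_dvd ht hmp htm)
    exact hcZ (hd.not_both hu (g := 1) hc (by rw [cj_one]; exact hcD))

/-- The normal complement and the congruence. -/
theorem complement (hd : GoodData G m n D) :
    (∃ N : Subgroup G, N.Normal ∧ (Nat.card N).Coprime m ∧ ∃ a : ℕ, N.index = m ^ a) ∧ m ∣ n - 1 := by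
  have hmp := hd.m_prime
  have : Fact m.Prime := ⟨hmp⟩
  have hDn := hd.normal
  let Y : Subgroup G :=
    { carrier := {x | x ∈ D ∧ ¬ m ∣ orderOf x}
      one_mem' := ⟨one_mem _, by rw [orderOf_one]; exact hmp.not_dvd_one⟩
      mul_mem' := fun {a b} ha hb => ⟨mul_mem ha.1 hb.1, fun h' => by
        have h2 := h'.trans ((Commute.orderOf_mul_dvd_lcm (hd.comm a ha.1 b hb.1)).trans
          (Nat.lcm_dvd_mul _ _))
        exact (hmp.dvd_mul.1 h2).elim ha.2 hb.2⟩
      inv_mem' := fun {a} ha => ⟨inv_mem ha.1, by rw [orderOf_inv]; exact ha.2⟩ }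
  have hYn : Y.Normal := ⟨fun x hx g => ⟨hDn.conj_mem x hx.1 g, by rw [orderOf_cj]; exact hx.2⟩⟩
  have hYco : (Nat.card Y).Coprime m := by
    refine (hmp.coprime_iff_not_dvd.2 fun hdvd => ?_).symm
    obtain ⟨x, hx⟩ := exists_prime_orderOf_dvd_card' m hdvd
    exact x.2.2 (by rw [Subgroup.orderOf_coe, hx])
  have hYidx : ∃ a : ℕ, Y.index = m ^ a := by
    refine ⟨_, Nat.eq_prime_pow_of_unique_prime_dvd index_ne_zero_of_finite fun {q} hq hqd => ?_⟩
    by_contra hqm
    have : Fact q.Prime := ⟨hq⟩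
    obtain ⟨Q⟩ : Nonempty (Sylow q G) := inferInstance
    refine sylow_idx_not_dvd Q (fun x hx => ?_) hqd
    have hx' := (IsEl.of_mem_pGroup Q.2 hx).not_dvd hq hmp hqm
    exact ⟨hd.mem_of_not_dvd hmp (pow_one m).symm hx', hx'⟩
  refine ⟨⟨Y, hYn, hYco, hYidx⟩, ?_⟩
  obtain ⟨u0, hu0⟩ := hd.hyp.exists_mn
  obtain ⟨a, ha⟩ := hYidx
  obtain ⟨S⟩ : Nonempty (Sylow m G) := inferInstance
  set B := center G ⊓ Y with hB
  have hdvd := semiregular_dvd (S : Subgroup G) D Y B inf_le_right
    (fun g _ x hx => hYn.conj_mem x hx g)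
    (fun g _ x hx => ⟨conj_mem_center_iff.2 hx.1, hYn.conj_mem x hx.2 g⟩)
    (fun g _ x hx hxB hgx => hd.self x hx.1 (fun hz => hxB ⟨hz, hx⟩) ▸ mem_cl.2 hgx)
    (fun g _ hgD x hx => hd.comm g hgD x hx.1)
  rw [relIndex_sylow_eq S (fun g _ => hd.cj_D g), hd.index, hmp.factorization_self, pow_one] at hdvd
  have e2 : Nat.card Y = Nat.card B * (center G).relIndex Y := by
    rw [← inf_relIndex_right (center G), ← hB, ← relIndex_bot_left, ← relIndex_bot_left,
      relIndex_mul_relIndex ⊥ B Y bot_le inf_le_right]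
  have hBco : m.Coprime (Nat.card B) :=
    hYco.symm.coprime_dvd_right (card_dvd_of_le inf_le_right)
  rw [e2, ← Nat.mul_sub_one] at hdvd
  have hd' := hBco.dvd_of_dvd_mul_left hdvd
  suffices hYn' : (center G).relIndex Y = n by rwa [hYn'] at hd'
  have hle : center G ⊔ Y ≤ D := sup_le hd.center_le fun x hx => hx.1
  have e3 : (center G).relIndex Y * (center G ⊔ Y).relIndex D = m * n := by
    rw [← relIndex_sup_left (H := Y) (K := center G), relIndex_mul_relIndex _ _ _ le_sup_left hle,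
      hd.relIndex_center hu0, hd.kk_eq_m hu0]
  have h4 : ((center G).relIndex Y).Coprime m :=
    hYco.coprime_dvd_left (e2 ▸ dvd_mul_left _ _)
  obtain ⟨b, -, hb⟩ := (Nat.dvd_prime_pow hmp).1
    (show (center G ⊔ Y).relIndex D ∣ m ^ a from
      ha ▸ (relIndex_dvd_index_of_le hle).trans (index_dvd_of_le le_sup_right))
  refine Nat.dvd_antisymm (h4.dvd_of_dvd_mul_left (e3 ▸ dvd_mul_right _ _)) ?_
  exact ((hd.hyp.hcop.symm.pow_right b)).dvd_of_dvd_mul_right (hb ▸ e3 ▸ dvd_mul_left n m)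

theorem card_commutator (hd : GoodData G m n D) (P : Sylow m G) :
    Nat.card (commutator (P : Subgroup G)) = m := by
  have hmp := hd.m_prime
  have : Fact m.Prime := ⟨hmp⟩
  have hDn := hd.normal
  obtain ⟨u0, hu0⟩ := hd.hyp.exists_mn
  obtain ⟨c, hcD, hcs, hcZ⟩ := hd.exists_el_D hmp dvd_rfl
  obtain ⟨d, hd0, hdZ, hds, hdc⟩ := exists_y (A := (P : Subgroup G) ⊓ D) P.2 inf_le_left
    (fun g hg a ha => mem_inf.2 ⟨mul_mem (mul_mem hg ha.1) (inv_mem hg),
      hd.normal.conj_mem a ha.2 g⟩) ⟨c, ⟨hd.el_mem_sylow P hcD hcs, hcD⟩, hcZ⟩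
  obtain ⟨u, huP, huD⟩ : ∃ u ∈ (P : Subgroup G), u ∉ D := by
    by_contra! hle
    exact sylow_idx_not_dvd P hle (hd.index ▸ dvd_rfl)
  set z := ⁅u, d⁆ with hz
  have hzZ : z ∈ center G := by rw [hz, commutatorElement_def]; exact hdc u huP
  have hz1 : z ≠ 1 := fun e => huD (hd.self d hd0.2 hdZ ▸ mem_cl.2
    (commutatorElement_eq_one_iff_mul_comm.1 e))
  have hzm : z ^ m = 1 := by
    have hzd : Commute z d := (mem_center_iff.1 hzZ d).symm
    have e1 : (u * d * u⁻¹) ^ m = z ^ m * d ^ m := by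
      rw [← hzd.mul_pow]
      congr 1
      rw [hz, commutatorElement_def]; group
    rw [conj_pow, mem_center_iff.1 hds u, mul_inv_cancel_right] at e1
    exact mul_eq_right.1 e1.symm
  have hzo : orderOf z = m := orderOf_eq_prime hzm hz1
  -- generation of P
  have hgen : ∀ H : Subgroup G, d ∈ H → u ∈ H → center G ≤ H → (P : Subgroup G) ≤ H := by
    intro H hdH huH hZH
    have hPD : (P : Subgroup G) ⊓ D ≤ H := by
      let W := zpowers d ⊔ center G
      have hW : W ≤ H := sup_le (zpowers_le.2 hdH) hZH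
      refine le_trans ?_ hW
      intro x hx
      obtain ⟨T⟩ : Nonempty (Sylow m D) := inferInstance
      set A := (T : Subgroup D).map D.subtype
      have hWA : ∀ y ∈ (P : Subgroup G) ⊓ D, y ∈ A := fun y hy =>
        hd.mem_sylowD T hy.2 (IsEl.of_mem_pGroup P.2 hy.1)
      have hrel : (center G).relIndex A = m := by
        rw [relIndex_center_sylow T, hd.relIndex_center hu0, hd.kk_eq_m hu0,
          Nat.factorization_mul hmp.ne_zero (by have := hd.hyp.hn; omega)]
        simp [hmp.factorization_self, Nat.factorization_eq_zero_of_not_dvd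
          (fun h2 => hd.hyp.not_dvd_m hmp h2 dvd_rfl : ¬ m ∣ n)]
      by_contra hxW
      have h1 : W.relIndex A ∣ m := hrel ▸ relIndex_dvd_of_le_left A le_sup_right
      rcases (Nat.dvd_prime hmp).1 h1 with h2 | h2
      · exact hxW (relIndex_eq_one.1 h2 (hWA x hx))
      · have h3 : (center G).relIndex (W ⊓ A) * W.relIndex A = m := by
          rw [← hrel, ← inf_relIndex_right W A,
            ← inf_relIndex_right (center G) (W ⊓ A), ← inf_relIndex_right (center G) A,
            ← relIndex_mul_relIndex (center G ⊓ A) (W ⊓ A) A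
              (inf_le_inf_right A le_sup_right) inf_le_right]
          congr 1
          rw [← inf_assoc, inf_of_le_left (le_sup_right : center G ≤ W)]
        rw [h2] at h3
        have h4 : (center G).relIndex (W ⊓ A) = 1 :=
          Nat.eq_of_mul_eq_mul_right hmp.pos (by rw [h3, one_mul])
        exact hdZ (relIndex_eq_one.1 h4 ⟨mem_sup_left (mem_zpowers d), hWA d hd0⟩)
    intro x hx
    have : Fact (Nat.card (G ⧸ D)).Prime := ⟨by rw [← index_eq_card, hd.index]; exact hmp⟩
    have hu1 : QuotientGroup.mk' D u ≠ 1 := fun e => huD ((QuotientGroup.eq_one_iff u).1 e)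
    obtain ⟨i, hi⟩ := mem_zpowers_iff.1 (mem_zpowers_of_prime_card (p := Nat.card (G ⧸ D)) rfl hu1
      (g' := QuotientGroup.mk' D x))
    have hxD : x * (u ^ i)⁻¹ ∈ (P : Subgroup G) ⊓ D := by
      refine mem_inf.2 ⟨mul_mem hx (inv_mem (zpow_mem huP i)), (QuotientGroup.eq_one_iff _).1 ?_⟩
      show QuotientGroup.mk' D (x * (u ^ i)⁻¹) = 1
      rw [map_mul, map_inv, map_zpow, hi, mul_inv_cancel]
    have := mul_mem (hPD hxD) (zpow_mem huH i)
    rwa [inv_mul_cancel_right] at this
  have hLn : (zpowers z).Normal := ⟨fun a ha g => by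
    rw [mem_center_iff.1 (zpowers_le.2 hzZ ha) g, mul_inv_cancel_right]; exact ha⟩
  let π := QuotientGroup.mk' (zpowers z)
  have hcomm : ⁅(P : Subgroup G), (P : Subgroup G)⁆ ≤ zpowers z := by
    have hud : π u * π d = π d * π u := by
      rw [← commutatorElement_eq_one_iff_mul_comm, ← map_commutatorElement]
      exact (QuotientGroup.eq_one_iff _).2 (mem_zpowers z)
    have hcz : ∀ w : G, ∀ a ∈ center G, π w * π a = π a * π w := fun w a ha => by
      rw [← map_mul, ← map_mul, mem_center_iff.1 ha w]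
    have h1 : ∀ x ∈ (P : Subgroup G), π x * π d = π d * π x ∧ π x * π u = π u * π x := by
      intro x hx
      have := hgen ((centralizer ({π d, π u} : Set (G ⧸ zpowers z))).comap π) ?_ ?_ ?_ hx
      · rw [mem_comap, mem_centralizer_iff] at this
        exact ⟨(this _ (Set.mem_insert _ _)).symm, (this _ (Set.mem_insert_of_mem _ rfl)).symm⟩
      · rw [mem_comap, mem_centralizer_iff]
        rintro a (rfl | rfl)
        exacts [rfl, hud]
      · rw [mem_comap, mem_centralizer_iff]
        rintro a (rfl | rfl)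
        exacts [hud.symm, rfl]
      · intro a ha
        rw [mem_comap, mem_centralizer_iff]
        rintro b (rfl | rfl)
        exacts [hcz d a ha, hcz u a ha]
    rw [commutator_le]
    intro x hx y hy
    rw [← QuotientGroup.eq_one_iff]
    show π ⁅x, y⁆ = 1
    rw [map_commutatorElement, commutatorElement_eq_one_iff_mul_comm]
    have := hgen ((centralizer ({π x} : Set (G ⧸ zpowers z))).comap π) ?_ ?_ ?_ hy
    · rw [mem_comap, mem_centralizer_singleton_iff] at this
      exact this.symm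
    · rw [mem_comap, mem_centralizer_singleton_iff]; exact (h1 x hx).1.symm
    · rw [mem_comap, mem_centralizer_singleton_iff]; exact (h1 x hx).2.symm
    · intro a ha
      rw [mem_comap, mem_centralizer_singleton_iff]
      exact (hcz x a ha).symm
  have hge : zpowers z ≤ ⁅(P : Subgroup G), (P : Subgroup G)⁆ :=
    zpowers_le.2 (commutator_mem_commutator huP hd0.1)
  rw [Nat.card_congr ((commutator (P : Subgroup G)).equivMapOfInjective (P : Subgroup G).subtype
      (Subgroup.subtype_injective _)).toEquiv,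
    map_subtype_commutator, le_antisymm hcomm hge, Nat.card_zpowers, hzo]

theorem setOf_eq (hd : GoodData G m n D) :
    (D : Set G) = {x : G | (cl x).index = 1 ∨ (cl x).index = m} := by
  ext x
  refine ⟨hd.idx_cases_of_mem, fun hx => ?_⟩
  rcases hx with hx | hx
  · exact hd.center_le (idx_eq_one_iff.1 hx)
  · exact hd.cl_eq_D hx ▸ self_mem_cl x

end GoodData

end Cfsg.Agent.Lib.ClassOMN
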